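import Cfsg.Agent.Lib.PrimeTI.Poles
import Mathlib.LinearAlgebra.Matrix.Adjugate
import Mathlib.LinearAlgebra.Trace
import Mathlib.LinearAlgebra.Matrix.ToLin

/-!
# Three-dimensional groups of order prime to the characteristic with self-dual traces
-/

set_option autoImplicit false
set_option linter.unusedSectionVars false
set_option linter.style.haveILetI false

namespace CfsgLib.PrimeTI

open MulAction

variable {k : Type*} [Field k]

theorem det_sub_scalar_three {M N : Matrix (Fin 3) (Fin 3) k} (hNM : N * M = 1) (hd : M.det = 1)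
    (htr : N.trace = M.trace) (c : k) :
    (M - Matrix.scalar (Fin 3) c).det = (1 - c) * (1 + c + c ^ 2 - M.trace * c) := by
  have hMN : M * N = 1 := mul_eq_one_comm.1 hNM
  have hadj : M.adjugate = N := by
    calc M.adjugate = M.adjugate * (M * N) := by rw [hMN, mul_one]
      _ = N := by rw [← mul_assoc, Matrix.adjugate_mul, hd, one_smul, one_mul]
  have h2 : M.adjugate.trace = M.trace := by rw [hadj, htr]
  rw [Matrix.adjugate_fin_three] at h2
  rw [Matrix.det_fin_three] at hd
  simp [Matrix.trace_fin_three] at h2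
  rw [Matrix.det_fin_three, Matrix.trace_fin_three]
  simp [Matrix.scalar_apply]
  linear_combination hd - c * h2

section Lines

variable {H : Type*} [Group H] [Finite H] (τ : H →* Matrix (Fin 3) (Fin 3) k)

/-- The linear map attached to an element. -/
noncomputable def act (g : H) : Module.End k (Fin 3 → k) := Matrix.toLinAlgEquiv' (τ g)

theorem act_one : act τ 1 = 1 := by simp [act]

theorem act_mul (a b : H) : act τ (a * b) = act τ a * act τ b := by simp [act]

theorem act_mul_apply (a b : H) (u : Fin 3 → k) : act τ (a * b) u = act τ a (act τ b u) := by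
  rw [act_mul]; rfl

theorem act_inv_apply (a : H) (u : Fin 3 → k) : act τ a⁻¹ (act τ a u) = u := by
  rw [← act_mul_apply, inv_mul_cancel, act_one]; rfl

theorem trace_act (g : H) : LinearMap.trace k _ (act τ g) = (τ g).trace :=
  Matrix.trace_toLin'_eq (τ g)

/-- The space of fixed vectors of an element. -/
noncomputable def axis (g : H) : Submodule k (Fin 3 → k) := LinearMap.ker (act τ g - 1)

theorem mem_axis {g : H} {u : Fin 3 → k} : u ∈ axis τ g ↔ act τ g u = u := by
  simp [axis, LinearMap.mem_ker, sub_eq_zero]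

theorem eigen_relation (hdet : ∀ g, (τ g).det = 1) (hinv : ∀ g, (τ g⁻¹).trace = (τ g).trace)
    (g : H) {u : Fin 3 → k} (hu : u ≠ 0) {c : k} (hc : act τ g u = c • u) (hc1 : c ≠ 1) :
    (τ g).trace * c = 1 + c + c ^ 2 := by
  have h0 : (τ g - Matrix.scalar (Fin 3) c).det = 0 := by
    rw [← Matrix.exists_mulVec_eq_zero_iff]
    refine ⟨u, hu, ?_⟩
    rw [Matrix.sub_mulVec]
    have : act τ g u = (τ g).mulVec u := rfl
    rw [← this, hc, sub_eq_zero]
    ext i
    simp [Matrix.scalar_apply, Matrix.mulVec_diagonal]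
  rw [det_sub_scalar_three (N := τ g⁻¹) (by rw [← map_mul, inv_mul_cancel, map_one]) (hdet g)
    (hinv g)] at h0
  exact (sub_eq_zero.1 ((mul_eq_zero.1 h0).resolve_left (sub_ne_zero.2 (Ne.symm hc1)))).symm

theorem exists_fixed_vector (hdet : ∀ g, (τ g).det = 1)
    (hinv : ∀ g, (τ g⁻¹).trace = (τ g).trace) (g : H) :
    ∃ u : Fin 3 → k, u ≠ 0 ∧ act τ g u = u := by
  have h0 : (τ g - Matrix.scalar (Fin 3) (1 : k)).det = 0 := by
    rw [det_sub_scalar_three (N := τ g⁻¹) (by rw [← map_mul, inv_mul_cancel, map_one]) (hdet g)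
      (hinv g), sub_self, zero_mul]
  obtain ⟨u, hu, hu'⟩ := Matrix.exists_mulVec_eq_zero_iff.2 h0
  refine ⟨u, hu, ?_⟩
  rw [Matrix.sub_mulVec, sub_eq_zero] at hu'
  show (τ g).mulVec u = u
  rw [hu']
  simp

theorem finrank_axis (hinj : Function.Injective τ) (hdet : ∀ g, (τ g).det = 1)
    (hinv : ∀ g, (τ g⁻¹).trace = (τ g).trace) (hN : (Nat.card H : k) ≠ 0) {g : H} (hg : g ≠ 1) :
    Module.finrank k (axis τ g) = 1 := by
  obtain ⟨u, hu, hu'⟩ := exists_fixed_vector τ hdet hinv g
  have h1 : 1 ≤ Module.finrank k (axis τ g) := by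
    by_contra hlt
    have h0 : axis τ g = ⊥ := Submodule.finrank_eq_zero.1 (by omega)
    have hm : u ∈ axis τ g := (mem_axis τ).2 hu'
    rw [h0, Submodule.mem_bot] at hm
    exact hu hm
  refine le_antisymm ?_ h1
  by_contra hlt
  push Not at hlt
  set N := act τ g - 1 with hNdef
  have hrk : Module.finrank k (LinearMap.range N) ≤ 1 := by
    have := LinearMap.finrank_range_add_finrank_ker N
    rw [Module.finrank_fin_fun] at this
    have h2 : 2 ≤ Module.finrank k (LinearMap.ker N) := hlt
    omega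
  obtain ⟨z, hz⟩ := finrank_le_one_iff.1 hrk
  choose φ hφ using fun y : Fin 3 → k => hz ⟨N y, LinearMap.mem_range_self N y⟩
  have hNy : ∀ y, N y = φ y • (z : Fin 3 → k) := fun y => (congrArg Subtype.val (hφ y)).symm
  obtain ⟨t, ht⟩ : ∃ t, N (z : Fin 3 → k) = t • (z : Fin 3 → k) := ⟨_, hNy _⟩
  by_cases hN0 : N = 0
  · refine hg (hinj ?_)
    rw [map_one]
    apply Matrix.toLinAlgEquiv'.injective
    rw [map_one]
    exact sub_eq_zero.1 hN0
  have hz0 : (z : Fin 3 → k) ≠ 0 := fun e => hN0 (LinearMap.ext fun y => by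
    rw [hNy, e, smul_zero]; rfl)
  -- write `N` as a rank one map
  let φl : (Fin 3 → k) →ₗ[k] k :=
    { toFun := φ
      map_add' := fun a b => smul_left_injective k hz0
        (by simp only; rw [← hNy, map_add, add_smul, ← hNy, ← hNy])
      map_smul' := fun a b => smul_left_injective k hz0
        (by simp only [RingHom.id_apply, smul_eq_mul]; rw [← hNy, map_smul, mul_smul, ← hNy]) }
  have hNl : N = φl.smulRight (z : Fin 3 → k) := LinearMap.ext hNy
  have htz : φ (z : Fin 3 → k) = t := smul_left_injective k hz0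
    (show φ (z : Fin 3 → k) • (z : Fin 3 → k) = t • (z : Fin 3 → k) by rw [← hNy, ht])
  have htr : (τ g).trace = 3 + t := by
    have e : act τ g = N + 1 := by rw [hNdef, sub_add_cancel]
    rw [← trace_act, e, map_add, hNl, LinearMap.trace_smulRight, LinearMap.trace_one,
      Module.finrank_fin_fun]
    show φ (z : Fin 3 → k) + _ = _
    rw [htz]; push_cast; ring
  have ht0 : t = 0 := by
    by_contra ht0
    have hz' : act τ g (z : Fin 3 → k) = (1 + t) • (z : Fin 3 → k) := by
      have e : act τ g = N + 1 := by rw [hNdef, sub_add_cancel]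
      rw [e, LinearMap.add_apply, ht, Module.End.one_apply, add_smul, one_smul, add_comm]
    have hr := eigen_relation τ hdet hinv g hz0 hz' (by simpa using ht0)
    rw [htr] at hr
    exact ht0 (by linear_combination hr)
  have hN2 : ∀ y, N (N y) = 0 := fun y => by
    rw [hNy y, map_smul, ht, ht0, zero_smul, smul_zero]
  have hpow : ∀ m : ℕ, ∀ y, act τ (g ^ m) y = y + (m : k) • N y := by
    intro m
    induction m with
    | zero => intro y; simp [act_one]
    | succ m ih =>
      intro y
      have e : act τ g y = y + N y := by simp [hNdef]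
      rw [pow_succ, act_mul_apply, e, ih, map_add, hN2, add_zero, Nat.cast_succ, add_smul, one_smul]
      abel
  refine hN0 (LinearMap.ext fun y => ?_)
  have h2 := hpow (Nat.card H) y
  rw [pow_card_eq_one', act_one, Module.End.one_apply, left_eq_add] at h2
  exact (smul_eq_zero.1 h2).resolve_left hN

variable (hinj : Function.Injective τ) (hdet : ∀ g, (τ g).det = 1)
  (hinv : ∀ g, (τ g⁻¹).trace = (τ g).trace) (hN : (Nat.card H : k) ≠ 0)

/-- The pointwise stabilizer of a subspace. -/
noncomputable def fixer (l : Submodule k (Fin 3 → k)) : Subgroup H where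
  carrier := {g | ∀ u ∈ l, act τ g u = u}
  one_mem' u _ := by rw [act_one]; rfl
  mul_mem' {a b} ha hb u hu := by rw [act_mul_apply, hb u hu, ha u hu]
  inv_mem' {a} ha u hu := by
    conv_lhs => rw [← ha u hu]
    exact act_inv_apply τ a u

theorem mem_fixer {l : Submodule k (Fin 3 → k)} {g : H} :
    g ∈ fixer τ l ↔ ∀ u ∈ l, act τ g u = u := Iff.rfl

include hinj hdet hinv hN in
/-- An element moving an axis to itself acts on it by a sign. -/
theorem axis_sign {x : H} (hx : x ≠ 1) {g : H}
    (hg : ∀ u ∈ axis τ x, act τ g u ∈ axis τ x) :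
    (∀ u ∈ axis τ x, act τ g u = u) ∨ ∀ u ∈ axis τ x, act τ g u = -u := by
  classical
  haveI := Fintype.ofFinite H
  haveI := Fintype.ofFinite (fixer τ (axis τ x))
  obtain ⟨⟨w, hw⟩, hw0, hwspan⟩ := finrank_eq_one_iff'.1 (finrank_axis τ hinj hdet hinv hN hx)
  have hw0' : w ≠ 0 := fun e => hw0 (Subtype.ext e)
  obtain ⟨c, hc⟩ := hwspan ⟨_, hg w hw⟩
  have hc' : act τ g w = c • w := (congrArg Subtype.val hc).symm
  have hall : ∀ u ∈ axis τ x, act τ g u = c • u := fun u hu => by
    obtain ⟨d, hd⟩ := hwspan ⟨u, hu⟩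
    have hd' : d • w = u := congrArg Subtype.val hd
    rw [← hd', map_smul, hc', smul_comm]
  by_cases hc1 : c = 1
  · exact Or.inl fun u hu => by rw [hall u hu, hc1, one_smul]
  refine Or.inr fun u hu => ?_
  rw [hall u hu]
  suffices hcm : c = -1 by rw [hcm, neg_smul, one_smul]
  -- sum over the fixer of the axis
  set S := fixer τ (axis τ x)
  set n : k := (Nat.card S : k)
  have hn : n ≠ 0 := fun e => hN (by
    obtain ⟨d, hd⟩ := Subgroup.card_subgroup_dvd_card S
    rw [hd, Nat.cast_mul, show (Nat.card S : k) = 0 from e, zero_mul])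
  set A : Module.End k (Fin 3 → k) := ∑ s : S, act τ (s : H) with hA
  have hxS : x ∈ S := fun u hu => (mem_axis τ).1 hu
  have hrange : ∀ y, A y ∈ axis τ x := by
    intro y
    rw [mem_axis, hA, LinearMap.sum_apply, map_sum]
    exact Fintype.sum_equiv (Equiv.mulLeft (⟨x, hxS⟩ : S)) _ _ fun s => (act_mul_apply τ x s y).symm
  have hAw : A w = n • w := by
    rw [hA, LinearMap.sum_apply, Finset.sum_congr rfl fun (s : S) _ => s.2 w hw, Finset.sum_const,
      Finset.card_univ, ← Nat.card_eq_fintype_card, Nat.cast_smul_eq_nsmul]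
  choose φ hφ using fun y => hwspan ⟨A y, hrange y⟩
  have hAy : ∀ y, A y = φ y • w := fun y => (congrArg Subtype.val (hφ y)).symm
  let φl : (Fin 3 → k) →ₗ[k] k :=
    { toFun := φ
      map_add' := fun a b => smul_left_injective k hw0'
        (by simp only; rw [← hAy, map_add, add_smul, ← hAy, ← hAy])
      map_smul' := fun a b => smul_left_injective k hw0'
        (by simp only [RingHom.id_apply, smul_eq_mul]; rw [← hAy, map_smul, mul_smul, ← hAy]) }
  have hgA : act τ g * A = φl.smulRight (c • w) := LinearMap.ext fun y => by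
    show act τ g (A y) = φ y • c • w
    rw [hAy, map_smul, hc']
  have hφw : φ w = n := smul_left_injective k hw0'
    (show φ w • w = n • w by rw [← hAy, hAw])
  have h1 : LinearMap.trace k _ (act τ g * A) = n * c := by
    rw [hgA, LinearMap.trace_smulRight]
    show φ (c • w) = _
    have : φ (c • w) = c • φ w := φl.map_smul c w
    rw [this, hφw, smul_eq_mul, mul_comm]
  rw [hA, Finset.mul_sum, map_sum] at h1
  have h2 : ∀ s : S, LinearMap.trace k _ (act τ g * act τ (s : H)) * c = 1 + c + c ^ 2 := by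
    intro s
    rw [← act_mul, trace_act]
    refine eigen_relation τ hdet hinv _ hw0' ?_ hc1
    rw [act_mul_apply, s.2 w hw, hc']
  have h3 := congrArg (· * c) h1
  simp only [Finset.sum_mul, h2, Finset.sum_const, Finset.card_univ, ← Nat.card_eq_fintype_card,
    nsmul_eq_mul] at h3
  have h4 : n * (1 + c) = 0 := by linear_combination h3
  exact eq_neg_of_add_eq_zero_left (by rw [add_comm]; exact (mul_eq_zero.1 h4).resolve_left hn)

include hinj hdet hinv hN in
/-- The orders of the possible groups. -/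
theorem axes_order (h2k : (2 : k) ≠ 0) (E M : Subgroup H) (x : H) (hx : x ∈ E)
    (hgen : ∀ y ∈ E, y ∈ Subgroup.zpowers x) (hE : 3 ≤ Nat.card E)
    (hM : ∀ g ∈ M, g * x * g⁻¹ ∈ E) (hMcard : Nat.card M = 2 * Nat.card E)
    (hline : ∀ w : Fin 3 → k, w ≠ 0 → ∀ ε : H →* ℤˣ,
      (∀ g, act τ g w = ((ε g : ℤ) : k) • w) → False) :
    (Nat.card H = 12 ∨ Nat.card H = 24 ∨ Nat.card H = 60) ∧ Nat.card E ≤ 5 := by
  classical
  let Λ := Set.range fun y : {y : H // y ≠ 1} => axis τ (y : H)
  haveI : Finite Λ := Finite.Set.finite_range _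
  have hfin := fun {y : H} (hy : y ≠ 1) => finrank_axis τ hinj hdet hinv hN hy
  have hconj : ∀ g y : H, axis τ (g * y * g⁻¹) = (axis τ y).map (act τ g) := by
    intro g y
    ext u
    rw [mem_axis, Submodule.mem_map]
    constructor
    · intro hu
      refine ⟨act τ g⁻¹ u, (mem_axis τ).2 ?_, by rw [← act_mul_apply, mul_inv_cancel, act_one]; rfl⟩
      rw [act_mul_apply, act_mul_apply] at hu
      conv_rhs => rw [← hu, act_inv_apply]
    · rintro ⟨z, hz, rfl⟩
      rw [act_mul_apply, act_mul_apply, act_inv_apply, (mem_axis τ).1 hz]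
  letI : MulAction H Λ :=
    { smul := fun g l => ⟨l.1.map (act τ g), by
        obtain ⟨y, hy⟩ := l.2
        exact ⟨⟨g * y * g⁻¹, fun e => y.2 (conj_eq_one_iff.1 e)⟩, by
          rw [← hy]; exact hconj g y⟩⟩
      one_smul := fun l => Subtype.ext (show l.1.map (act τ 1) = l.1 by
        rw [act_one, Module.End.one_eq_id, Submodule.map_id])
      mul_smul := fun a b l => Subtype.ext (show l.1.map (act τ (a * b))
          = (l.1.map (act τ b)).map (act τ a) by
        rw [act_mul, Module.End.mul_eq_comp, Submodule.map_comp]) }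
  let L : {y : H // y ≠ 1} → Λ := fun y => ⟨axis τ y, y, rfl⟩
  have hKmem : ∀ (y : {y : H // y ≠ 1}) (l : Λ), (y : H) ∈ fixer τ l.1 ↔ L y = l := by
    intro y l
    constructor
    · intro hy
      obtain ⟨z, hz⟩ := l.2
      refine Subtype.ext (Submodule.eq_of_le_of_finrank_le (fun u hu => (mem_axis τ).2 (hy u hu)) ?_).symm
      rw [hfin y.2, ← hz, hfin z.2]
    · rintro rfl u hu
      exact (mem_axis τ).1 hu
  have hstab : ∀ (l : Λ) (g : H), g • l = l → ∀ u ∈ l.1, act τ g u ∈ l.1 := by
    intro l g hg u hu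
    have h1 : l.1.map (act τ g) = l.1 := congrArg Subtype.val hg
    exact h1.le (Submodule.mem_map_of_mem hu)
  have hKle : ∀ l : Λ, fixer τ l.1 ≤ stabilizer H l := by
    intro l g hg
    refine Subtype.ext (show l.1.map (act τ g) = l.1 from ?_)
    ext u
    rw [Submodule.mem_map]
    exact ⟨fun ⟨z, hz, e⟩ => e ▸ (hg z hz).symm ▸ hz, fun hu => ⟨u, hu, hg u hu⟩⟩
  have hsign : ∀ (l : Λ) (g : H), g • l = l →
      g ∈ fixer τ l.1 ∨ ∀ u ∈ l.1, act τ g u = -u := by
    intro l g hg
    obtain ⟨z, hz⟩ := l.2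
    have hs := hstab l g hg
    rw [← hz] at hs
    rw [mem_fixer, ← hz]
    exact axis_sign τ hinj hdet hinv hN z.2 hs
  have hneg : ∀ (l : Λ) (g : H), g ∈ fixer τ l.1 → (∀ u ∈ l.1, act τ g u = -u) → False := by
    intro l g h1 h2
    obtain ⟨z, hz⟩ := l.2
    obtain ⟨u, hu, hu'⟩ := exists_fixed_vector τ hdet hinv (z : H)
    have hul : u ∈ l.1 := hz ▸ (mem_axis τ).2 hu'
    have := (h1 u hul).symm.trans (h2 u hul)
    exact hu ((smul_eq_zero.1 (show (2 : k) • u = 0 by rw [two_smul]; exact eq_neg_iff_add_eq_zero.1 this)).resolve_left h2k)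
  have hidx : ∀ l : Λ, Nat.card (stabilizer H l) = Nat.card (fixer τ l.1) ∨
      Nat.card (stabilizer H l) = 2 * Nat.card (fixer τ l.1) := by
    intro l
    by_cases hall : stabilizer H l ≤ fixer τ l.1
    · exact Or.inl (by rw [le_antisymm hall (hKle l)])
    obtain ⟨g₀, hg₀, hg₀'⟩ := SetLike.not_le_iff_exists.1 hall
    refine Or.inr ?_
    have hneg₀ := (hsign l g₀ hg₀).resolve_left hg₀'
    have hi : ((fixer τ l.1).subgroupOf (stabilizer H l)).index = 2 := by
      rw [Subgroup.index_eq_two_iff]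
      refine ⟨⟨g₀, hg₀⟩, fun b => ?_⟩
      simp only [Subgroup.mem_subgroupOf, Subgroup.coe_mul]
      by_cases hb : (b : H) ∈ fixer τ l.1
      · exact Or.inr ⟨hb, fun e => hg₀' (by
          have := mul_mem (inv_mem hb) e
          rwa [inv_mul_cancel_left] at this)⟩
      · refine Or.inl ⟨fun u hu => ?_, hb⟩
        have hb' := (hsign l b b.2).resolve_left hb
        rw [act_mul_apply, hneg₀ u hu, map_neg, hb' u hu, neg_neg]
    have h1 := ((fixer τ l.1).subgroupOf (stabilizer H l)).card_mul_index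
    rw [hi, Nat.card_congr (Subgroup.subgroupOfEquivOfLe (hKle l)).toEquiv] at h1
    omega
  have hmove : ∀ l : Λ, ∃ g : H, g • l ≠ l := by
    intro l
    by_contra! hall
    obtain ⟨z, hz⟩ := l.2
    obtain ⟨u, hu, hu'⟩ := exists_fixed_vector τ hdet hinv (z : H)
    have hul : u ∈ l.1 := hz ▸ (mem_axis τ).2 hu'
    let ε : H →* ℤˣ :=
      { toFun := fun g => if g ∈ fixer τ l.1 then 1 else -1
        map_one' := if_pos (one_mem _)
        map_mul' := fun a b => by
          by_cases ha : a ∈ fixer τ l.1 <;> by_cases hb : b ∈ fixer τ l.1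
          · simp [ha, hb, mul_mem ha hb]
          · have : a * b ∉ fixer τ l.1 := fun e => hb (by
              have := mul_mem (inv_mem ha) e; rwa [inv_mul_cancel_left] at this)
            simp [ha, hb, this]
          · have : a * b ∉ fixer τ l.1 := fun e => ha (by
              have := mul_mem e (inv_mem hb); rwa [mul_inv_cancel_right] at this)
            simp [ha, hb, this]
          · have ha' := (hsign l a (hall a)).resolve_left ha
            have hb' := (hsign l b (hall b)).resolve_left hb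
            have : a * b ∈ fixer τ l.1 := fun w hw => by
              rw [act_mul_apply, hb' w hw, map_neg, ha' w hw, neg_neg]
            simp [ha, hb, this] }
    refine hline u hu ε fun g => ?_
    by_cases hg : g ∈ fixer τ l.1
    · simp [ε, hg, hg u hul]
    · simp [ε, hg, (hsign l g (hall g)).resolve_left hg u hul]
  -- the axis of `E`
  have hx1 : x ≠ 1 := fun e => by
    have hb : E = ⊥ := (Subgroup.eq_bot_iff_forall _).2 fun y hy => by
      have := hgen y hy
      rwa [e, Subgroup.zpowers_one_eq_bot, Subgroup.mem_bot] at this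
    rw [hb, Subgroup.card_bot] at hE
    omega
  set l₀ := L ⟨x, hx1⟩
  have hEK : E ≤ fixer τ l₀.1 := fun y hy => by
    obtain ⟨m, rfl⟩ := hgen y hy
    exact zpow_mem ((hKmem ⟨x, hx1⟩ l₀).2 rfl) m
  have hMs : M ≤ stabilizer H l₀ := fun g hg => by
    have hne : g * x * g⁻¹ ≠ 1 := fun e => hx1 (conj_eq_one_iff.1 e)
    refine (Subtype.ext (hconj g x).symm : g • l₀ = L ⟨g * x * g⁻¹, hne⟩).trans ?_
    exact (hKmem ⟨_, hne⟩ l₀).1 (hEK (hM g hg))
  have hK0 : Nat.card E ≤ Nat.card (fixer τ l₀.1) :=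
    Nat.le_of_dvd Nat.card_pos (Subgroup.card_dvd_of_le hEK)
  obtain ⟨hN', h5, -⟩ := poles_count L (fun l => by
      obtain ⟨y, hy⟩ := l.2
      exact ⟨y, Subtype.ext hy⟩)
    (fun l => fixer τ l.1) hKmem (fun g y => Subtype.ext (hconj g y)) hidx hmove l₀ (hE.trans hK0)
  exact ⟨hN', hK0.trans h5⟩

end Lines

end CfsgLib.PrimeTI
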