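import Cfsg.Agent.Lib.PrimeTI.Setup
import Cfsg.Agent.Lib.Clifford.DetChar
import Cfsg.Agent.Lib.CharTheory.PermChar
import Cfsg.Agent.Lib.CharTheory.FullDefect
import Cfsg.Agent.Lib.Frobenius.Induce
import Cfsg.Agent.Lib.Coherence.Virtual
import Mathlib.LinearAlgebra.Determinant
import Mathlib.RingTheory.RootsOfUnity.Complex

/-!
# Characters of a prime-degree group with TI complement
-/

set_option autoImplicit false
set_option linter.unusedSectionVars false
set_option linter.style.haveILetI false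

namespace CfsgLib.PrimeTI

open Cfsg MulAction CfsgLib.CharTheory CfsgLib.Frobenius
open scoped ComplexConjugate

/-- In a perfect group two equal restrictions have equal products of linear complements. -/
theorem linear_prod_eq_of_restrict {G : Type*} [Group G] [Finite G] (hG : commutator G = ⊤)
    (E : Subgroup G) {χ ψ : G → ℂ} (hχ : IsCharacter G χ) (hψ : IsCharacter G ψ)
    (a₁ a₂ b₁ b₂ : E →* ℂˣ)
    (h : ∀ y : E, χ y + (a₁ y : ℂ) + (a₂ y : ℂ) = ψ y + (b₁ y : ℂ) + (b₂ y : ℂ)) :
    a₁ * a₂ = b₁ * b₂ := by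
  obtain ⟨n, ρ, rfl⟩ := hχ
  obtain ⟨m, σ, rfl⟩ := hψ
  have hone : ∀ {k : ℕ} (τ : Representation ℂ G (Fin k → ℂ)) (g : G), LinearMap.det (τ g) = 1 := by
    intro k τ g
    have hg : g ∈ (CfsgLib.Clifford.detHom τ).ker :=
      Abelianization.commutator_subset_ker _ (by rw [hG]; exact Subgroup.mem_top g)
    rw [← CfsgLib.Clifford.detHom_apply, MonoidHom.mem_ker.1 hg, Units.val_one]
  let L := fun (c : E →* ℂˣ) => linearRep c
  let R := Representation.prod (ρ.comp E.subtype) ((L a₁).prod (L a₂))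
  let S := Representation.prod (σ.comp E.subtype) ((L b₁).prod (L b₂))
  have htr : ∀ (c : E →* ℂˣ) (y : E), LinearMap.trace ℂ ℂ (linearRep c y) = (c y : ℂ) :=
    fun c y => congrFun (character_linearRep c) y
  have hdl : ∀ (c : E →* ℂˣ) (y : E), LinearMap.det (linearRep c y) = (c y : ℂ) := by
    intro c y
    show LinearMap.det (algebraMap ℂ (Module.End ℂ ℂ) (c y : ℂ)) = _
    rw [Algebra.algebraMap_eq_smul_one, LinearMap.det_smul, map_one, Module.finrank_self]
    simp
  have hRS : R.character = S.character := by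
    funext y
    show LinearMap.trace ℂ _ ((ρ (y : G)).prodMap ((linearRep a₁ y).prodMap (linearRep a₂ y)))
      = LinearMap.trace ℂ _ ((σ (y : G)).prodMap ((linearRep b₁ y).prodMap (linearRep b₂ y)))
    rw [LinearMap.trace_prodMap', LinearMap.trace_prodMap', LinearMap.trace_prodMap',
      LinearMap.trace_prodMap', htr, htr, htr, htr, ← add_assoc, ← add_assoc]
    exact h y
  obtain ⟨φ⟩ := nonempty_equiv_of_character_eq R S hRS
  refine MonoidHom.ext fun y => Units.ext ?_
  have e : S y = φ.toLinearEquiv.toLinearMap ∘ₗ R y ∘ₗ φ.toLinearEquiv.symm.toLinearMap := by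
    refine LinearMap.ext fun v => ?_
    have := LinearMap.congr_fun (φ.toIntertwiningMap.isIntertwining' y) (φ.toLinearEquiv.symm v)
    simp only [LinearMap.comp_apply] at this ⊢
    refine Eq.trans ?_ this.symm
    exact congrArg (S y) (φ.toLinearEquiv.apply_symm_apply v).symm
  have hd : LinearMap.det (R y) = LinearMap.det (S y) := by rw [e, LinearMap.det_conj]
  have hR : LinearMap.det (R y) = LinearMap.det (ρ (y : G))
      * (LinearMap.det (linearRep a₁ y) * LinearMap.det (linearRep a₂ y)) := by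
    show LinearMap.det ((ρ (y : G)).prodMap ((linearRep a₁ y).prodMap (linearRep a₂ y))) = _
    rw [LinearMap.det_prodMap, LinearMap.det_prodMap]
  have hS : LinearMap.det (S y) = LinearMap.det (σ (y : G))
      * (LinearMap.det (linearRep b₁ y) * LinearMap.det (linearRep b₂ y)) := by
    show LinearMap.det ((σ (y : G)).prodMap ((linearRep b₁ y).prodMap (linearRep b₂ y))) = _
    rw [LinearMap.det_prodMap, LinearMap.det_prodMap]
  rw [hR, hS, hone, hone, hdl, hdl, hdl, hdl, one_mul, one_mul] at hd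
  simpa using hd

variable {G α : Type*} [Group G] [Fintype G] [MulAction G α] [FaithfulSMul G α]
  [IsPretransitive G α] {p : ℕ} [Fact p.Prime] (h : Hyp G α p)

namespace Hyp

include h

theorem orderOf_vp {j : ZMod p} (hj : j ≠ 0) : orderOf (h.vp j) = p := by
  refine orderOf_eq_prime ?_ fun h1 => hj (h.vp_injective (by rw [h1, h.vp_zero]))
  have hv := pow_orderOf_eq_one h.v
  rw [h.orderOf_v] at hv
  rw [vp, ← pow_mul, mul_comm, pow_mul, hv, one_pow]

theorem not_sq_dvd_card : ¬ p ^ 2 ∣ Nat.card G := by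
  have hp : p.Prime := Fact.out
  intro h2
  have h3 := (hp.pow_dvd_iff_le_factorization Nat.card_pos.ne').1 h2
  have h4 := h.P.card_eq_multiplicity
  rw [h.card_P] at h4
  have h6 : (Nat.card G).factorization p = 1 :=
    (Nat.pow_right_injective hp.two_le ((pow_one p).trans h4)).symm
  omega

theorem St_vp {j : ZMod p} (hj : j ≠ 0) : (h.St : G → ℂ) (h.vp j) = 0 :=
  IsIrrCharacter.eq_zero_of_fullDegree h.St.2 (n := 1) (Fact.out : p.Prime) h.not_sq_dvd_card
    h.St_one (by simp) (by rw [h.orderOf_vp hj])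

/-- The exceptional character takes nonzero linear values on `E`. -/
theorem exists_linear : ∃ μ : h.E →* ℂˣ, ∀ y : h.E, y ≠ 1 → (h.St : G → ℂ) y = (μ y : ℂ) := by
  classical
  have hp : p.Prime := Fact.out
  have hp0 : (p : ℂ) ≠ 0 := Nat.cast_ne_zero.2 hp.ne_zero
  obtain ⟨d, ρ, -, hρ⟩ := h.St.2
  have hρg : ∀ g, LinearMap.trace ℂ _ (ρ g) = (h.St : G → ℂ) g := fun g => congrFun hρ g
  set A : Module.End ℂ (Fin d → ℂ) := (p : ℂ)⁻¹ • ∑ j, ρ (h.vp j) with hA
  clear_value A
  have hvA : ∀ i, ρ (h.vp i) * A = A := fun i => by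
    rw [hA, mul_smul_comm, Finset.mul_sum]
    congr 1
    refine Fintype.sum_equiv (Equiv.addLeft i) _ _ fun j => ?_
    rw [← map_mul, ← h.vp_add]
    rfl
  have hAA : A * A = A := by
    conv_lhs => arg 1; rw [hA]
    rw [smul_mul_assoc, Finset.sum_mul]
    simp only [hvA, Finset.sum_const, Finset.card_univ, ZMod.card]
    rw [← Nat.cast_smul_eq_nsmul ℂ, smul_smul, inv_mul_cancel₀ hp0, one_smul]
  have htrA : LinearMap.trace ℂ _ A = 1 := by
    rw [hA, map_smul, map_sum]
    simp only [hρg]
    rw [Finset.sum_eq_single (0 : ZMod p) (fun j _ hj => h.St_vp hj)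
      (fun hh => absurd (Finset.mem_univ _) hh), h.vp_zero, h.St_one, smul_eq_mul,
      inv_mul_cancel₀ hp0]
  have hproj : LinearMap.IsProj (LinearMap.range A) A :=
    LinearMap.IsIdempotentElem.isProj_range A hAA
  have hrk : Module.finrank ℂ (LinearMap.range A) = 1 := by
    have := hproj.trace
    rw [htrA] at this
    exact_mod_cast this.symm
  obtain ⟨w, hw0, hw⟩ := finrank_eq_one_iff'.1 hrk
  have hcomm : ∀ y : h.E, ρ (y : G) * A = A * ρ (y : G) := fun y => by
    have hn : h.n y ≠ 0 := fun h0 => by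
      have h1 := h.n_mul y y⁻¹
      rw [mul_inv_cancel, h.n_one, h0, zero_mul] at h1
      exact one_ne_zero h1
    rw [hA, mul_smul_comm, smul_mul_assoc, Finset.mul_sum, Finset.sum_mul]
    congr 1
    refine Fintype.sum_equiv (Equiv.mulLeft₀ (h.n y) hn) _ _ fun j => ?_
    rw [← map_mul, ← map_mul]
    congr 1
    show (y : G) * h.vp j = h.vp (h.n y * j) * (y : G)
    rw [← h.conj_vp]
    group
  have hex : ∀ y : h.E, ∃ c : ℂ, ρ (y : G) * A = c • A := by
    intro y
    have hmem : ρ (y : G) (w : Fin d → ℂ) ∈ LinearMap.range A :=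
      ⟨ρ (y : G) (w : Fin d → ℂ), by
        conv_rhs => rw [← hproj.map_id _ w.2]
        exact (LinearMap.congr_fun (hcomm y) _).symm⟩
    obtain ⟨c, hc⟩ := hw ⟨_, hmem⟩
    refine ⟨c, LinearMap.ext fun u => ?_⟩
    obtain ⟨r, hr⟩ := hw ⟨A u, LinearMap.mem_range_self A u⟩
    have hr' : r • (w : Fin d → ℂ) = A u := congrArg Subtype.val hr
    have hc' : c • (w : Fin d → ℂ) = ρ (y : G) (w : Fin d → ℂ) := congrArg Subtype.val hc
    rw [Module.End.mul_apply, LinearMap.smul_apply, ← hr', map_smul, ← hc', smul_comm]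
  choose c hc using hex
  have hA0 : A ≠ 0 := fun h0 => by rw [h0, map_zero] at htrA; exact zero_ne_one htrA
  have hcan : ∀ {r s : ℂ}, r • A = s • A → r = s := fun {r s} hrs => by
    have := congrArg (LinearMap.trace ℂ _) hrs
    rwa [map_smul, map_smul, htrA, smul_eq_mul, smul_eq_mul, mul_one, mul_one] at this
  have hc1 : c 1 = 1 := hcan (by rw [← hc, Subgroup.coe_one, map_one, one_mul, one_smul])
  have hcm : ∀ y z, c (y * z) = c y * c z := fun y z => hcan (by
    rw [← hc, Subgroup.coe_mul, map_mul, mul_assoc, hc, mul_smul_comm, hc, smul_smul, mul_comm (c z)])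
  let f : h.E →* ℂ := ⟨⟨c, hc1⟩, hcm⟩
  refine ⟨f.toHomUnits, fun y hy => ?_⟩
  rw [MonoidHom.coe_toHomUnits]
  show _ = c y
  have hn1 : h.n y⁻¹ - 1 ≠ 0 := sub_ne_zero.2 fun e =>
    hy (inv_eq_one.1 (h.eq_one_of_n_eq_one e))
  have hconst : ∀ j, (h.St : G → ℂ) ((y : G) * h.vp j) = (h.St : G → ℂ) y := by
    intro j
    set i := j / (h.n y⁻¹ - 1)
    have hi : h.vp i * (y : G) * (h.vp i)⁻¹ = (y : G) * h.vp j := by
      have h1 : (h.vp i)⁻¹ = h.vp (-i) := by
        rw [inv_eq_iff_mul_eq_one, ← h.vp_add, add_neg_cancel, h.vp_zero]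
      have h2 := h.conj_vp y⁻¹ i
      rw [Subgroup.coe_inv, inv_inv] at h2
      calc h.vp i * (y : G) * (h.vp i)⁻¹
          = (y : G) * ((y : G)⁻¹ * h.vp i * (y : G) * h.vp (-i)) := by rw [h1]; group
        _ = (y : G) * h.vp j := by
            rw [h2, ← h.vp_add]
            congr 2
            simp only [i]
            field_simp
            ring
    rw [← hi]
    exact IsIrrCharacter.isClassFunction h.St.2 (y : G) (h.vp i)
  have h1 := congrArg (LinearMap.trace ℂ _) (hc y)
  rw [map_smul, htrA, hA, mul_smul_comm, Finset.mul_sum, map_smul, map_sum] at h1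
  simp only [← map_mul, hρg, hconst, Finset.sum_const, Finset.card_univ, ZMod.card,
    nsmul_eq_mul, smul_eq_mul, mul_one] at h1
  rw [← h1, inv_mul_cancel_left₀ hp0]

theorem perfect : commutator G = ⊤ := by
  classical
  obtain ⟨y, hy⟩ := h.exists_ne_one
  have hne : commutator G ≠ ⊥ := fun hb => by
    have hc : (y : G) * h.v * (y : G)⁻¹ * h.v⁻¹ ∈ commutator G :=
      Subgroup.commutator_mem_commutator (Subgroup.mem_top _) (Subgroup.mem_top _)
    rw [hb, Subgroup.mem_bot, mul_inv_eq_one, h.conj_v] at hc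
    exact hy (h.eq_one_of_n_eq_one (h.vp_injective (hc.trans h.vp_one.symm)))
  have hPG : (h.P : Subgroup G) ≤ commutator G :=
    CfsgLib.PermGroups.le_of_normal_prime_degree (α := α) h.card _ hne h.P
  obtain ⟨μ, hμ⟩ := h.exists_linear
  have hlam : ∀ l : G →* ℂˣ, l = 1 := by
    intro l
    have hP : (h.P : Subgroup G) ≤ l.ker := hPG.trans (Abelianization.commutator_subset_ker l)
    have hirr : IsIrrCharacter G ((fun g => (l g : ℂ)) * (h.St : G → ℂ)) :=
      isIrrCharacter_mul_of_norm h.St.2 (IsIrrCharacter.isCharacter (isIrrCharacter_linear l)) fun g => by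
        have h1 : (l g : ℂ) ^ Nat.card G = 1 := by
          rw [← Units.val_pow_eq_pow_val, ← map_pow, pow_card_eq_one', map_one, Units.val_one]
        exact Complex.norm_eq_one_of_pow_eq_one h1 Nat.card_pos.ne'
    have hEk : h.E ≤ l.ker := fun z hz => by
      by_cases hz1 : (⟨z, hz⟩ : h.E) = 1
      · rw [show z = 1 from congrArg Subtype.val hz1]; exact one_mem _
      have he := congrArg Subtype.val (h.St_unique ⟨_, hirr⟩ (by simp [h.St_one]))
      have h2 := congrFun he z
      change (l z : ℂ) * (h.St : G → ℂ) z = _ at h2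
      rw [hμ ⟨z, hz⟩ hz1] at h2
      rw [MonoidHom.mem_ker]
      exact Units.ext (mul_left_eq_self₀.1 h2 |>.resolve_right (Units.ne_zero _))
    have htop : (⊤ : Subgroup G) ≤ l.ker := by
      refine (h.P.normalizer_sup_eq_top' hPG).ge.trans
        (sup_le ?_ (Abelianization.commutator_subset_ker l))
      exact h.sup_eq.ge.trans (sup_le hP hEk)
    exact MonoidHom.ext fun g => MonoidHom.mem_ker.1 (htop (Subgroup.mem_top g))
  refine Subgroup.index_eq_one.1 ?_
  rw [← card_linear, Nat.card_congr linearEquivHom]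
  haveI : Unique (G →* ℂˣ) := ⟨⟨1⟩, hlam⟩
  exact Nat.card_unique

/-- The character `St` takes the value one on `E`. -/
theorem St_E {y : h.E} (hy : y ≠ 1) : (h.St : G → ℂ) y = 1 := by
  classical
  haveI := h.finite
  haveI := Fintype.ofFinite α
  obtain ⟨μ, hμ⟩ := h.exists_linear
  have hfix : ∀ z : h.E, z ≠ 1 → Nat.card (fixedBy α (z : G)) = 1 := fun z hz => by
    rw [Nat.card_eq_one_iff_exists]
    exact ⟨⟨h.a, h.smul_a z⟩, fun b => Subtype.ext (h.fixed_eq hz b.2)⟩
  have h1 := linear_prod_eq_of_restrict h.perfect h.E (IsIrrCharacter.isCharacter h.St.2)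
    (isCharacter_card_fixedBy α) 1 1 μ 1 (fun z => by
      by_cases hz : z = 1
      · subst hz
        have : Nat.card (fixedBy α (1 : G)) = p := by
          rw [show fixedBy α (1 : G) = Set.univ from Set.eq_univ_of_forall fun b => one_smul G b,
            Nat.card_univ, h.card]
        simp only [Subgroup.coe_one, MonoidHom.one_apply, map_one, Units.val_one, h.St_one, this]
      · rw [hμ z hz, hfix z hz]
        simp; ring)
  rw [hμ y hy]
  have := DFunLike.congr_fun h1 y
  simp only [MonoidHom.mul_apply, MonoidHom.one_apply, mul_one] at this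
  rw [← this, Units.val_one]

end Hyp

end CfsgLib.PrimeTI
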