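import Cfsg.Agent.Lib.PrimeTI.Chars
import Cfsg.Agent.Lib.CharTheory.Decomp
import Mathlib.RingTheory.RootsOfUnity.AlgebraicallyClosed

/-!
# The characters induced from `l - 1` on the TI subgroup `E`
-/

set_option autoImplicit false
set_option linter.unusedSectionVars false
set_option linter.style.haveILetI false

namespace CfsgLib.PrimeTI

open Cfsg MulAction CfsgLib.CharTheory CfsgLib.Frobenius
open scoped ComplexConjugate

variable {G α : Type*} [Group G] [Fintype G] [MulAction G α] [FaithfulSMul G α]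
  [IsPretransitive G α] {p : ℕ} [Fact p.Prime] (h : Hyp G α p)

/-- Conjugation by the flip, on `E`. -/
noncomputable def Hyp.tau : h.E →* h.E where
  toFun y := ⟨h.flip⁻¹ * (y : G) * h.flip,
    (Subgroup.mem_normalizer_iff''.1 h.flip_mem y).1 y.2⟩
  map_one' := Subtype.ext (by simp)
  map_mul' a b := Subtype.ext (by simp only [Subgroup.coe_mul]; group)

/-- `(l - 1)` induced to `G`. -/
noncomputable def Hyp.al (l : h.E →* ℂˣ) : G → ℂ :=
  indFun h.E fun y : h.E => (l y : ℂ) - 1

namespace Hyp

include h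

theorem indFun_E_apply (f : h.E → ℂ) {y : h.E} (hy : y ≠ 1) :
    indFun h.E f y = f y + f (h.tau y) := by
  classical
  set F : G → ℂ := fun g => extendByZero h.E f (g⁻¹ * (y : G) * g) with hF
  have hy' : (y : G) ≠ 1 := fun e => hy (Subtype.ext e)
  let S₁ : Finset G := Finset.univ.image (Subtype.val : h.E → G)
  let S₂ : Finset G := Finset.univ.image fun z : h.E => (z : G) * h.flip
  have hdisj : Disjoint S₁ S₂ := by
    rw [Finset.disjoint_left]
    simp only [S₁, S₂, Finset.mem_image, Finset.mem_univ, true_and]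
    rintro _ ⟨z, rfl⟩ ⟨z', hz'⟩
    apply h.flip_notMem
    rw [show h.flip = (z' : G)⁻¹ * z by rw [← hz']; group]
    exact mul_mem (inv_mem z'.2) z.2
  have hout : ∀ g : G, g ∉ S₁ ∪ S₂ → F g = 0 := by
    intro g hg
    refine extendByZero_of_not_mem _ _ fun hm => hg ?_
    rcases h.mem_normalizer_cases (h.mem_normalizer_of_conj y.2 hy' hm) with h1 | h1
    · exact Finset.mem_union_left _ (Finset.mem_image.2 ⟨⟨g, h1⟩, Finset.mem_univ _, rfl⟩)
    · exact Finset.mem_union_right _ (Finset.mem_image.2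
        ⟨⟨g * h.flip⁻¹, h1⟩, Finset.mem_univ _, inv_mul_cancel_right g h.flip⟩)
  have h1 : ∀ z : h.E, F (z : G) = f y := fun z => by
    have e : (z : G)⁻¹ * (y : G) * z = y := by
      rw [mul_assoc, ← Subgroup.coe_mul, (h.E_comm y z).eq, Subgroup.coe_mul,
        inv_mul_cancel_left]
    simp only [hF, e]
    exact extendByZero_coe _ _ _
  have h2 : ∀ z : h.E, F ((z : G) * h.flip) = f (h.tau y) := fun z => by
    have e : ((z : G) * h.flip)⁻¹ * (y : G) * ((z : G) * h.flip) = (h.tau y : G) := by
      have e' : (z : G)⁻¹ * (y : G) * z = y := by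
        rw [mul_assoc, ← Subgroup.coe_mul, (h.E_comm y z).eq, Subgroup.coe_mul,
          inv_mul_cancel_left]
      show _ = h.flip⁻¹ * (y : G) * h.flip
      conv_rhs => rw [← e']
      group
    simp only [hF, e]
    exact extendByZero_coe _ _ _
  have hsum : ∑ g : G, F g = (Nat.card h.E : ℂ) * (f y + f (h.tau y)) := by
    rw [← Finset.sum_subset (Finset.subset_univ (S₁ ∪ S₂)) (fun g _ hg => hout g hg),
      Finset.sum_union hdisj, Finset.sum_image (fun a _ b _ e => Subtype.ext e),
      Finset.sum_image (fun a _ b _ e => Subtype.ext (mul_right_cancel e))]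
    simp only [h1, h2, Finset.sum_const, Finset.card_univ, nsmul_eq_mul]
    rw [Nat.card_eq_fintype_card]
    ring
  show (Nat.card h.E : ℂ)⁻¹ * ∑ g : G, F g = _
  rw [hsum, inv_mul_cancel_left₀ (Nat.cast_ne_zero.2 Nat.card_pos.ne')]

theorem al_one (l : h.E →* ℂˣ) : h.al l 1 = 0 := by
  rw [al, indFun_one]; simp

theorem al_E (l : h.E →* ℂˣ) (y : h.E) :
    h.al l y = (l y : ℂ) + (l (h.tau y) : ℂ) - 2 := by
  by_cases hy : y = 1
  · subst hy
    rw [Subgroup.coe_one, h.al_one]; simp; norm_num
  · rw [al, h.indFun_E_apply _ hy]; ring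

theorem exists_faithful : ∃ l : h.E →* ℂˣ, Function.Injective l := by
  classical
  haveI := h.isCyclic_E
  haveI : NeZero (Nat.card h.E) := ⟨Nat.card_pos.ne'⟩
  haveI : IsCyclic (rootsOfUnity (Nat.card h.E) ℂ) := inferInstance
  have hc : Nat.card h.E = Nat.card (rootsOfUnity (Nat.card h.E) ℂ) := by
    rw [HasEnoughRootsOfUnity.natCard_rootsOfUnity]
  exact ⟨(rootsOfUnity (Nat.card h.E) ℂ).subtype.comp (mulEquivOfCyclicCardEq hc).toMonoidHom,
    (Subgroup.subtype_injective _).comp (mulEquivOfCyclicCardEq hc).injective⟩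

/-- `N(E)` inverts `E`. -/
theorem tau_eq_inv (y : h.E) : h.tau y = y⁻¹ := by
  classical
  haveI := Fintype.ofFinite h.E
  obtain ⟨l, hl⟩ := h.exists_faithful
  have key := linear_prod_eq_of_restrict h.perfect h.E
    (isCharacter_indFun h.E _ (IsIrrCharacter.isCharacter (isIrrCharacter_linear l)))
    (isCharacter_indFun h.E _ (IsIrrCharacter.isCharacter (isIrrCharacter_linear
      (1 : h.E →* ℂˣ))))
    1 1 l (l.comp h.tau) (fun z => by
      by_cases hz : z = 1
      · subst hz
        rw [Subgroup.coe_one, indFun_one, indFun_one]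
        simp
      · rw [h.indFun_E_apply _ hz, h.indFun_E_apply _ hz]
        simp
        ring)
  refine (eq_inv_of_mul_eq_one_right (hl ?_))
  rw [map_mul, map_one]
  have := DFunLike.congr_fun key y
  simp only [MonoidHom.mul_apply, MonoidHom.one_apply, mul_one, MonoidHom.comp_apply] at this
  exact this.symm

theorem al_E' (l : h.E →* ℂˣ) (y : h.E) :
    h.al l y = (l y : ℂ) + ((l y : ℂ))⁻¹ - 2 := by
  rw [h.al_E, h.tau_eq_inv, map_inv, Units.val_inv_eq_inv_val]

theorem conj_linear (l : h.E →* ℂˣ) (y : h.E) : conj (l y : ℂ) = ((l y : ℂ))⁻¹ := by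
  have h1 : (l y : ℂ) ^ Nat.card h.E = 1 := by
    rw [← Units.val_pow_eq_pow_val, ← map_pow, pow_card_eq_one', map_one, Units.val_one]
  exact (Complex.inv_eq_conj (Complex.norm_eq_one_of_pow_eq_one h1 Nat.card_pos.ne')).symm

/-- The induced function of `l - 1` is real. -/
theorem conj_al (l : h.E →* ℂˣ) (g : G) : conj (h.al l g) = h.al l g := by
  classical
  have hflip : ∀ u : G, conj (extendByZero h.E (fun y : h.E => (l y : ℂ) - 1) u)
      = extendByZero h.E (fun y : h.E => (l y : ℂ) - 1) (h.flip⁻¹ * u * h.flip) := by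
    intro u
    by_cases hu : u ∈ h.E
    · rw [extendByZero_of_mem _ _ hu,
        extendByZero_of_mem _ _ ((Subgroup.mem_normalizer_iff''.1 h.flip_mem u).1 hu), map_sub,
        map_one, h.conj_linear]
      congr 1
      rw [show (⟨h.flip⁻¹ * u * h.flip, _⟩ : h.E) = h.tau ⟨u, hu⟩ from rfl, h.tau_eq_inv,
        map_inv, Units.val_inv_eq_inv_val]
    · rw [extendByZero_of_not_mem _ _ hu, map_zero, extendByZero_of_not_mem]
      exact fun hm => hu ((Subgroup.mem_normalizer_iff''.1 h.flip_mem u).2 hm)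
  simp only [al, indFun, map_mul, map_inv₀, map_natCast, map_sum, hflip]
  congr 1
  refine Fintype.sum_equiv (Equiv.mulRight h.flip) _ _ fun x => ?_
  congr 1
  show h.flip⁻¹ * (x⁻¹ * g * x) * h.flip = (x * h.flip)⁻¹ * g * (x * h.flip)
  group

theorem isGeneralizedCharacter_al (l : h.E →* ℂˣ) : IsGeneralizedCharacter G (h.al l) :=
  isGeneralizedCharacter_indFun h.E _
    ⟨_, _, IsIrrCharacter.isCharacter (isIrrCharacter_linear l),
      IsIrrCharacter.isCharacter isIrrCharacter_one, rfl⟩

theorem classInner_al [Fintype h.E] (l : h.E →* ℂˣ) {F : G → ℂ} (hF : IsClassFunction G F) :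
    classInner (h.al l) F = classInner (fun y : h.E => (l y : ℂ) - 1) (fun y : h.E => F y) :=
  classInner_indFun h.E _ F hF

theorem classInner_linear [Fintype h.E] (l m : h.E →* ℂˣ) :
    classInner (fun y : h.E => (l y : ℂ)) (fun y : h.E => (m y : ℂ))
      = if l = m then 1 else 0 := by
  split_ifs with e
  · rw [e]; exact classInner_self_of_isIrr (isIrrCharacter_linear m)
  · exact classInner_eq_zero_of_ne (isIrrCharacter_linear l) (isIrrCharacter_linear m)
      fun e' => e (linear_inj e')

/-- `(α, c) = -c` for a constant. -/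
theorem classInner_sub_const [Fintype h.E] {l : h.E →* ℂˣ} (hl : l ≠ 1) (F : h.E → ℂ)
    (hF : ∀ y, y ≠ 1 → F y = 1) :
    classInner (fun y : h.E => (l y : ℂ) - 1) F = -1 := by
  classical
  have e : classInner (fun y : h.E => (l y : ℂ) - 1) F
      = classInner (fun y : h.E => (l y : ℂ) - 1) (fun _ => (1 : ℂ)) := by
    simp only [classInner]
    congr 1
    refine Finset.sum_congr rfl fun y _ => ?_
    by_cases hy : y = 1
    · subst hy; simp
    · rw [hF y hy]
  rw [e, show (fun y : h.E => (l y : ℂ) - 1)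
      = (fun y : h.E => (l y : ℂ)) - (fun y : h.E => ((1 : h.E →* ℂˣ) y : ℂ)) by
        funext y; simp,
    classInner_sub_left]
  rw [show (fun _ : h.E => (1 : ℂ)) = (fun y : h.E => ((1 : h.E →* ℂˣ) y : ℂ)) by funext y; simp,
    h.classInner_linear, h.classInner_linear, if_neg hl, if_pos rfl, zero_sub]

theorem classInner_al_self [Fintype h.E] {l : h.E →* ℂˣ} (hl : l ≠ 1) (hl2 : l * l ≠ 1) :
    classInner (h.al l) (h.al l) = 3 := by
  classical
  rw [h.classInner_al l (F := h.al l) (indFun_isClassFunction h.E _)]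
  have e : (fun y : h.E => h.al l y) = (fun y : h.E => (l y : ℂ)) + (fun y : h.E => (l⁻¹ y : ℂ))
      - ((fun y : h.E => ((1 : h.E →* ℂˣ) y : ℂ)) + (fun y : h.E => ((1 : h.E →* ℂˣ) y : ℂ))) := by
    funext y
    rw [h.al_E']
    simp [MonoidHom.inv_apply]
    ring
  rw [e, show (fun y : h.E => (l y : ℂ) - 1)
      = (fun y : h.E => (l y : ℂ)) - (fun y : h.E => ((1 : h.E →* ℂˣ) y : ℂ)) by funext y; simp]
  have n1 : l ≠ l⁻¹ := fun e => hl2 (MonoidHom.ext fun y => by
    rw [MonoidHom.mul_apply, MonoidHom.one_apply]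
    nth_rw 1 [e]
    rw [MonoidHom.inv_apply, inv_mul_cancel])
  have n2 : (1 : h.E →* ℂˣ) ≠ l⁻¹ := fun e => hl (MonoidHom.ext fun y => inv_eq_one.1 (DFunLike.congr_fun e.symm y))
  simp only [classInner_sub_left, classInner_sub_right, classInner_add_right, h.classInner_linear,
    if_neg n1, if_neg n2, if_neg hl, if_neg (Ne.symm hl), if_pos]
  norm_num

/-- The irreducible character `X = 1 + St + (l - 1)^G`. -/
theorem exists_principal_series {l : h.E →* ℂˣ} (hl : l ≠ 1) (hl2 : l * l ≠ 1) :
    IsIrrCharacter G (fun g => 1 + (h.St : G → ℂ) g + h.al l g) := by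
  classical
  haveI := Fintype.ofFinite h.E
  set o : G → ℂ := fun _ => 1
  have ho : IsIrrCharacter G o := isIrrCharacter_one
  have hX : (fun g => 1 + (h.St : G → ℂ) g + h.al l g) = o + (h.St : G → ℂ) + h.al l := rfl
  rw [hX]
  have hne : o ≠ (h.St : G → ℂ) := fun e => by
    have := congrFun e 1
    simp only [o, h.St_one] at this
    have h1 : p = 1 := by exact_mod_cast this.symm
    exact (Fact.out : p.Prime).one_lt.ne' h1
  have a1 : classInner (h.al l) o = -1 := by
    rw [h.classInner_al l (IsIrrCharacter.isClassFunction ho)]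
    exact h.classInner_sub_const hl _ fun _ _ => rfl
  have a2 : classInner (h.al l) (h.St : G → ℂ) = -1 := by
    rw [h.classInner_al l (IsIrrCharacter.isClassFunction h.St.2)]
    exact h.classInner_sub_const hl _ fun y hy => h.St_E hy
  have a1' : classInner o (h.al l) = -1 := by
    rw [classInner_conj_symm, a1, map_neg, map_one]
  have a2' : classInner (h.St : G → ℂ) (h.al l) = -1 := by
    rw [classInner_conj_symm, a2, map_neg, map_one]
  refine isIrrCharacter_of_norm_one ?_ ?_ ?_
  · exact CfsgLib.Coherence.isGeneralizedCharacter_add (CfsgLib.Coherence.isGeneralizedCharacter_add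
      (IsIrrCharacter.isGeneralizedCharacter ho) (IsIrrCharacter.isGeneralizedCharacter h.St.2))
      (h.isGeneralizedCharacter_al l)
  · simp only [classInner_add_left, classInner_add_right, classInner_self_of_isIrr ho,
      classInner_self_of_isIrr h.St.2, classInner_eq_zero_of_ne ho h.St.2 hne,
      classInner_eq_zero_of_ne h.St.2 ho (Ne.symm hne), a1, a2, a1', a2',
      h.classInner_al_self hl hl2]
    norm_num
  · simp [o, h.St_one, h.al_one]
    positivity

theorem St_real (g : G) : conj ((h.St : G → ℂ) g) = (h.St : G → ℂ) g := by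
  have := h.St_unique ⟨_, isIrrCharacter_conj h.St.2⟩ (by simp [h.St_one])
  exact congrFun (congrArg Subtype.val this) g

end Hyp

end CfsgLib.PrimeTI
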