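import Cfsg.Agent.Lib.PrimeTI.Unipotent
import Cfsg.Agent.Lib.PermGroups.PModule

/-!
# The trace from `N(P)` of a map on sum-zero functions

A good vector gives a nonzero equivariant map from the sum-zero functions on the points.
-/

set_option autoImplicit false
set_option linter.unusedSectionVars false
set_option linter.style.haveILetI false

namespace CfsgLib.PrimeTI

open MulAction

variable {G α : Type*} [Group G] [Fintype G] [MulAction G α] [FaithfulSMul G α]
  [IsPretransitive G α] {p : ℕ} [Fact p.Prime] (h : Hyp G α p)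
variable {k : Type*} [Field k] [CharP k p] {V : Type*} [AddCommGroup V] [Module k V]
  (ρ : Representation k G V)

namespace Hyp

theorem pt_add (j : ZMod p) (b : α) : h.v • h.pt b j = h.pt b (j + 1) := by
  rw [pt, pt, ← mul_smul, add_comm j 1, h.vp_add, h.vp_one]

/-- The coordinates centred at the point fixed by `E`. -/
noncomputable def coord : α ≃ ZMod p := (Equiv.ofBijective _ (h.pt_bijective h.a)).symm

theorem pt_coord (b : α) : h.pt h.a (h.coord b) = b :=
  (Equiv.ofBijective _ (h.pt_bijective h.a)).apply_symm_apply b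

theorem coord_pt (j : ZMod p) : h.coord (h.pt h.a j) = j :=
  (Equiv.ofBijective _ (h.pt_bijective h.a)).symm_apply_apply j

theorem coord_v (b : α) : h.coord (h.v • b) = h.coord b + 1 := by
  conv_lhs => rw [← h.pt_coord b, h.pt_add, h.coord_pt]

/-- Partial sums of the orbit of `w`. -/
noncomputable def psum (w : V) (j : ℕ) : V := ∑ i ∈ Finset.range j, (ρ h.v ^ i) w

theorem psum_period {w : V} (hw : h.NP ρ w = 0) : h.psum ρ w p = 0 := by
  rw [NP, LinearMap.sum_apply] at hw
  refine Eq.trans ?_ hw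
  rw [psum]
  refine Finset.sum_nbij' (fun i => (i : ZMod p)) (fun j : ZMod p => j.val) ?_ ?_ ?_ ?_ ?_
  · exact fun i _ => Finset.mem_univ _
  · exact fun j _ => Finset.mem_range.2 (ZMod.val_lt j)
  · exact fun i hi => ZMod.val_natCast_of_lt (Finset.mem_range.1 hi)
  · exact fun j _ => ZMod.natCast_zmod_val j
  · intro i hi
    rw [h.rho_vp, ZMod.val_natCast_of_lt (Finset.mem_range.1 hi)]

/-- The affine map `v^j a ↦ (1 + v + ⋯ + v^(j-1)) w`. -/
noncomputable def cmap (w : V) (b : α) : V := h.psum ρ w (h.coord b).val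

theorem cmap_v {w : V} (hw : h.NP ρ w = 0) (b : α) :
    h.cmap ρ w (h.v • b) = ρ h.v (h.cmap ρ w b) + w := by
  rw [cmap, cmap, h.coord_v]
  set m := (h.coord b).val
  have hm : m < p := ZMod.val_lt _
  have hval : (h.coord b + 1).val = (m + 1) % p := by
    rw [← ZMod.val_natCast, Nat.cast_succ, ZMod.natCast_zmod_val]
  have hsucc : ρ h.v (h.psum ρ w m) + w = h.psum ρ w (m + 1) := by
    rw [psum, psum, Finset.sum_range_succ' _ m, map_sum, pow_zero, Module.End.one_apply]
    congr 1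
    exact Finset.sum_congr rfl fun i _ => by rw [pow_succ']; rfl
  rw [hsucc, hval]
  rcases Nat.lt_or_ge (m + 1) p with h1 | h1
  · rw [Nat.mod_eq_of_lt h1]
  · rw [show m + 1 = p by omega, Nat.mod_self, h.psum_period ρ hw, psum, Finset.range_zero,
      Finset.sum_empty]

/-- The difference map, conjugated by `g`. -/
noncomputable def psi (w : V) (g : G) (b d : α) : V :=
  ρ g (h.cmap ρ w (g⁻¹ • b) - h.cmap ρ w (g⁻¹ • d))

theorem psi_mul (w : V) (g l : G) (b d : α) :
    h.psi ρ w (g * l) b d = ρ g (h.psi ρ w l (g⁻¹ • b) (g⁻¹ • d)) := by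
  simp only [psi, mul_inv_rev, mul_smul, map_mul, Module.End.mul_apply]

theorem psi_v {w : V} (hw : h.NP ρ w = 0) (b d : α) :
    h.psi ρ w h.v b d = h.psi ρ w 1 b d := by
  have e : ∀ c : α, h.cmap ρ w c = ρ h.v (h.cmap ρ w (h.v⁻¹ • c)) + w := fun c => by
    rw [← h.cmap_v ρ hw, smul_inv_smul]
  simp only [psi, inv_one, one_smul, map_one, Module.End.one_apply]
  rw [e b, e d, map_sub]
  abel

theorem psi_mul_P {w : V} (hw : h.NP ρ w = 0) (g : G) {u : G} (hu : u ∈ (h.P : Subgroup G))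
    (b d : α) : h.psi ρ w (g * u) b d = h.psi ρ w g b d := by
  obtain ⟨j, rfl⟩ := h.mem_P_iff.1 hu
  rw [vp]
  induction j.val generalizing g with
  | zero => simp
  | succ n ih =>
    rw [pow_succ', ← mul_assoc, ih, h.psi_mul, h.psi_v ρ hw, ← h.psi_mul, mul_one]

/-- The summand of the trace at a coset. -/
noncomputable def psiQ (w : V) (q : G ⧸ (h.P : Subgroup G)) (b d : α) : V :=
  h.psi ρ w q.out b d

theorem psiQ_mk {w : V} (hw : h.NP ρ w = 0) (g : G) (b d : α) :
    h.psiQ ρ w (g : G ⧸ (h.P : Subgroup G)) b d = h.psi ρ w g b d := by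
  obtain ⟨⟨u, hu⟩, hu'⟩ := QuotientGroup.mk_out_eq_mul (h.P : Subgroup G) g
  rw [psiQ, hu', h.psi_mul_P ρ hw _ hu]

/-- The trace. -/
noncomputable def phi [Fintype (G ⧸ (h.P : Subgroup G))] (w : V) (b d : α) : V :=
  ∑ q : G ⧸ (h.P : Subgroup G), h.psiQ ρ w q b d

variable [Fintype (G ⧸ (h.P : Subgroup G))]

theorem phi_equivariant {w : V} (hw : h.NP ρ w = 0) (g : G) (b d : α) :
    h.phi ρ w (g • b) (g • d) = ρ g (h.phi ρ w b d) := by
  rw [phi, phi, map_sum]
  refine (Fintype.sum_equiv (MulAction.toPerm g) _ _ fun q => ?_).symm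
  induction q using QuotientGroup.induction_on with
  | H l =>
    show ρ g (h.psiQ ρ w (l : G ⧸ (h.P : Subgroup G)) b d)
      = h.psiQ ρ w ((g * l : G) : G ⧸ (h.P : Subgroup G)) (g • b) (g • d)
    rw [h.psiQ_mk ρ hw, h.psiQ_mk ρ hw, h.psi_mul, inv_smul_smul, inv_smul_smul]

theorem phi_add (w : V) (b d l : α) : h.phi ρ w b d + h.phi ρ w d l = h.phi ρ w b l := by
  simp only [phi, psiQ, psi, ← Finset.sum_add_distrib, ← map_add, sub_add_sub_cancel]

theorem rho_sub_mem (u : V) : ρ h.v u - u ∈ LinearMap.range (h.TT ρ) := ⟨u, by simp [TT]⟩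

theorem rho_vp_sub_mem (j : ZMod p) (u : V) :
    ρ (h.vp j) u - u ∈ LinearMap.range (h.TT ρ) := by
  rw [h.rho_vp]
  induction j.val with
  | zero => simp
  | succ n ih =>
    have := add_mem (h.rho_sub_mem ρ ((ρ h.v ^ n) u)) ih
    rw [sub_add_sub_cancel] at this
    rwa [pow_succ', Module.End.mul_apply]

/-- Fixed cosets of `v` on `G/P` come from `E`. -/
theorem exists_E_of_fixed {g : G}
    (hg : h.v • (g : G ⧸ (h.P : Subgroup G)) = g) :
    ∃ y : h.E, ((y : G) : G ⧸ (h.P : Subgroup G)) = g := by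
  rw [MulAction.Quotient.smul_coe, smul_eq_mul, QuotientGroup.eq] at hg
  have hg' : g⁻¹ * h.v * g ∈ (h.P : Subgroup G) := by
    have := inv_mem hg
    simpa [mul_assoc] using this
  have hN : g⁻¹ ∈ Subgroup.normalizer ((h.P : Subgroup G) : Set G) := by
    rw [Subgroup.mem_normalizer_iff_map_conj_eq]
    refine Subgroup.eq_of_le_of_card_ge ?_ ?_
    · rintro _ ⟨x, hx, rfl⟩
      obtain ⟨j, rfl⟩ := h.mem_P_iff.1 hx
      show g⁻¹ * h.vp j * g⁻¹⁻¹ ∈ _
      rw [inv_inv, vp, show g⁻¹ * h.v ^ j.val * g = (g⁻¹ * h.v * g) ^ j.val by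
        have := (conj_pow (a := g⁻¹) (b := h.v) (i := j.val)).symm
        rwa [inv_inv] at this]
      exact pow_mem hg' _
    · rw [Subgroup.card_map_of_injective (MulAut.conj g⁻¹).injective]
  rw [← inv_mem_iff, inv_inv, ← h.sup_eq, sup_comm] at hN
  have hset := Subgroup.coe_mul_of_left_le_normalizer_right h.E (h.P : Subgroup G) h.E_le
  have hg2 : g ∈ ((h.E ⊔ (h.P : Subgroup G) : Subgroup G) : Set G) := hN
  rw [hset] at hg2
  obtain ⟨y, hy, u, hu, rfl⟩ := hg2
  exact ⟨⟨y, hy⟩, QuotientGroup.eq.2 (by rw [← mul_assoc, inv_mul_cancel, one_mul]; exact hu)⟩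

theorem phi_notMem {w : V} (hw : h.IsGood ρ w) [Fintype h.E] :
    h.phi ρ w (h.v • h.a) h.a ∉ LinearMap.range (h.TT ρ) := by
  classical
  set R := LinearMap.range (h.TT ρ)
  obtain ⟨hwE, hwN, hwR⟩ := hw
  have hp : p.Prime := Fact.out
  -- the cosets fixed by `v`
  have hmap : ∀ y : h.E, h.psiQ ρ w ((y : G) : G ⧸ (h.P : Subgroup G)) (h.v • h.a) h.a - w ∈ R := by
    intro y
    have hy' : (y : G)⁻¹ • h.a = h.a := by
      have := h.smul_a y⁻¹
      rwa [Subgroup.coe_inv] at this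
    rw [h.psiQ_mk ρ hwN, psi, hy']
    have h0 : h.cmap ρ w h.a = 0 := by
      have : h.coord h.a = 0 := by
        conv_lhs => rw [← h.pt_zero h.a]
        exact h.coord_pt 0
      simp [cmap, psum, this]
    have h1 : (y : G)⁻¹ • h.v • h.a = h.pt h.a (h.n y⁻¹) := by
      have e := h.smul_pt y⁻¹ 1
      rw [Subgroup.coe_inv, mul_one] at e
      rw [← e, pt, h.vp_one]
    rw [h0, sub_zero, h1, cmap, h.coord_pt, psum, map_sum]
    have hterm : ∀ i : ℕ, ρ (y : G) ((ρ h.v ^ i) w) - ρ (y : G) w ∈ R := by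
      intro i
      have e : (y : G) * h.v ^ i = h.vp (h.n y * i) * (y : G) := by
        rw [h.pow_eq_vp, ← h.conj_vp]; group
      have e2 : ρ (y : G) ((ρ h.v ^ i) w) = ρ (h.vp (h.n y * i)) (ρ (y : G) w) := by
        rw [← map_pow, ← Module.End.mul_apply, ← map_mul, e, map_mul, Module.End.mul_apply]
      rw [e2]
      exact h.rho_vp_sub_mem ρ _ _
    have h2 : ∑ i ∈ Finset.range (h.n y⁻¹).val, (ρ (y : G) ((ρ h.v ^ i) w) - ρ (y : G) w) ∈ R :=
      Submodule.sum_mem _ fun i _ => hterm i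
    have h3 : ((h.n y⁻¹).val : k) * h.nk k y = 1 := by
      rw [← iota_natCast (k := k) (p := p), ZMod.natCast_zmod_val, mul_comm, ← h.nk_apply,
        h.nk_mul_inv]
    rw [Finset.sum_sub_distrib, Finset.sum_const, Finset.card_range, hwE,
      ← Nat.cast_smul_eq_nsmul k, smul_smul, h3, one_smul] at h2
    exact h2
  let emb : h.E → G ⧸ (h.P : Subgroup G) := fun y => ((y : G) : G ⧸ (h.P : Subgroup G))
  have hinj : Function.Injective emb := fun y z hyz => by
    have hm : (y : G)⁻¹ * z ∈ (h.P : Subgroup G) ⊓ h.E :=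
      ⟨QuotientGroup.eq.1 hyz, h.E.mul_mem (h.E.inv_mem y.2) z.2⟩
    rw [h.inf_eq, Subgroup.mem_bot, inv_mul_eq_one] at hm
    exact Subtype.ext hm
  set F : Finset (G ⧸ (h.P : Subgroup G)) := Finset.univ.image emb
  -- each other orbit telescopes
  have hrest : ∑ q ∈ Fᶜ, h.psiQ ρ w q (h.v • h.a) h.a ∈ R := by
    suffices H : ∀ S : Finset (G ⧸ (h.P : Subgroup G)), (∀ q ∈ S, ∀ j, h.vp j • q ∈ S) →
        (∀ q ∈ S, h.v • q ≠ q) → ∑ q ∈ S, h.psiQ ρ w q (h.v • h.a) h.a ∈ R by
      refine H _ (fun q hq j => ?_) (fun q hq hfix => ?_)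
      · rw [Finset.mem_compl] at hq ⊢
        intro hm
        obtain ⟨y, -, hy⟩ := Finset.mem_image.1 hm
        refine hq (Finset.mem_image.2 ⟨y, Finset.mem_univ _, ?_⟩)
        rw [← inv_smul_eq_iff] at hy
        rw [← hy]
        show _ = (h.vp j)⁻¹ • ((y : G) : G ⧸ (h.P : Subgroup G))
        rw [MulAction.Quotient.smul_coe, smul_eq_mul, QuotientGroup.eq]
        have := (Subgroup.mem_normalizer_iff''.1 (h.E_le y.2) ((h.vp j)⁻¹)).1
          ((h.P : Subgroup G).inv_mem (h.mem_P_iff.2 ⟨j, rfl⟩))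
        simpa [mul_assoc] using this
      · rw [Finset.mem_compl] at hq
        induction q using QuotientGroup.induction_on with
        | H g =>
          obtain ⟨y, hy⟩ := h.exists_E_of_fixed hfix
          exact hq (Finset.mem_image.2 ⟨y, Finset.mem_univ _, hy⟩)
    intro S
    induction S using Finset.strongInduction with
    | H S ih =>
      intro hinv hfree
      rcases S.eq_empty_or_nonempty with rfl | ⟨q0, hq0⟩
      · rw [Finset.sum_empty]; exact R.zero_mem
      set O : Finset (G ⧸ (h.P : Subgroup G)) := Finset.univ.image fun j => h.vp j • q0 with hO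
      have hOS : O ⊆ S := fun q hq => by
        obtain ⟨j, -, rfl⟩ := Finset.mem_image.1 hq
        exact hinv q0 hq0 j
      have hq0O : q0 ∈ O := Finset.mem_image.2 ⟨0, Finset.mem_univ _, by rw [h.vp_zero, one_smul]⟩
      rw [← Finset.sum_sdiff hOS]
      refine add_mem (ih _ (Finset.sdiff_ssubset hOS ⟨q0, hq0O⟩) ?_ ?_) ?_
      · intro q hq j
        rw [Finset.mem_sdiff] at hq ⊢
        refine ⟨hinv q hq.1 j, fun hm => hq.2 ?_⟩
        obtain ⟨i, -, hi⟩ := Finset.mem_image.1 hm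
        refine Finset.mem_image.2 ⟨-j + i, Finset.mem_univ _, ?_⟩
        rw [h.vp_add, mul_smul, hi, ← mul_smul, ← h.vp_add, neg_add_cancel, h.vp_zero, one_smul]
      · exact fun q hq => hfree q (Finset.mem_sdiff.1 hq).1
      have horb : Function.Injective fun j => h.vp j • q0 := by
        intro i j hij
        by_contra hne
        have hfix : h.vp (-j + i) • q0 = q0 := by
          simp only at hij
          rw [h.vp_add, mul_smul, hij, ← mul_smul, ← h.vp_add, neg_add_cancel, h.vp_zero, one_smul]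
        have hd : -j + i ≠ 0 := by
          rw [neg_add_eq_sub]
          exact sub_ne_zero.2 hne
        refine hfree q0 hq0 ?_
        have h1 : h.v = h.vp (-j + i) ^ ((-j + i)⁻¹ : ZMod p).val := by
          rw [h.vp_mul, mul_inv_cancel₀ hd, h.vp_one]
        rw [h1]
        exact MulAction.mem_stabilizer_iff.1 (pow_mem (MulAction.mem_stabilizer_iff.2 hfix) _)
      rw [hO, Finset.sum_image fun i _ j _ e => horb e]
      induction q0 using QuotientGroup.induction_on with
      | H g =>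
        have e : ∀ j, h.psiQ ρ w (h.vp j • (g : G ⧸ (h.P : Subgroup G))) (h.v • h.a) h.a
            - (h.psi ρ w g ((h.vp j)⁻¹ • h.v • h.a) ((h.vp j)⁻¹ • h.a)) ∈ R := by
          intro j
          rw [MulAction.Quotient.smul_coe, smul_eq_mul, h.psiQ_mk ρ hwN, h.psi_mul]
          exact h.rho_vp_sub_mem ρ j _
        have h2 : ∑ j : ZMod p, h.psi ρ w g ((h.vp j)⁻¹ • h.v • h.a) ((h.vp j)⁻¹ • h.a) = 0 := by
          simp only [psi, ← map_sum]
          rw [Finset.sum_sub_distrib]
          have : ∑ j : ZMod p, h.cmap ρ w (g⁻¹ • (h.vp j)⁻¹ • h.v • h.a)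
              = ∑ j : ZMod p, h.cmap ρ w (g⁻¹ • (h.vp j)⁻¹ • h.a) := by
            refine Fintype.sum_equiv (Equiv.subRight (1 : ZMod p)) _ _ fun j => ?_
            congr 2
            rw [Equiv.subRight_apply]
            have hi : ∀ i : ZMod p, (h.vp i)⁻¹ = h.vp (-i) := fun i => by
              rw [inv_eq_iff_mul_eq_one, ← h.vp_add, add_neg_cancel, h.vp_zero]
            rw [hi, hi, neg_sub', sub_neg_eq_add, h.vp_add, mul_smul, h.vp_one]
          rw [this, sub_self, map_zero]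
        have h3 := Submodule.sum_mem R (t := Finset.univ) fun j _ => e j
        rw [Finset.sum_sub_distrib, h2, sub_zero] at h3
        exact h3
  intro hmem
  apply hwR
  have hsplit : h.phi ρ w (h.v • h.a) h.a = ∑ q ∈ F, h.psiQ ρ w q (h.v • h.a) h.a
      + ∑ q ∈ Fᶜ, h.psiQ ρ w q (h.v • h.a) h.a := (Finset.sum_add_sum_compl F _).symm
  rw [hsplit] at hmem
  have h4 : ∑ q ∈ F, h.psiQ ρ w q (h.v • h.a) h.a ∈ R := by
    simpa using sub_mem hmem hrest
  rw [Finset.sum_image fun y _ z _ e => hinj e] at h4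
  have h5 : ∑ y : h.E, (h.psiQ ρ w ((y : G) : G ⧸ (h.P : Subgroup G)) (h.v • h.a) h.a - w) ∈ R :=
    Submodule.sum_mem _ fun y _ => hmap y
  rw [Finset.sum_sub_distrib, Finset.sum_const, Finset.card_univ, ← Nat.card_eq_fintype_card,
    ← Nat.cast_smul_eq_nsmul k] at h5
  have h6 := sub_mem h4 h5
  rw [sub_sub_cancel] at h6
  have h7 := R.smul_mem (Nat.card h.E : k)⁻¹ h6
  rwa [smul_smul, inv_mul_cancel₀ h.card_E_ne_zero, one_smul] at h7

/-- A good vector gives a nonzero equivariant map from the sum-zero functions. -/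
theorem exists_hom [Fintype α] {w : V} (hw : h.IsGood ρ w) :
    ∃ f : (α → k) →ₗ[k] V,
      (∀ g : G, ∀ F : α → k, ∑ b, F b = 0 → f (Cfsg.permRep k G α g F) = ρ g (f F)) ∧
      ∃ F : α → k, ∑ b, F b = 0 ∧ f F ≠ 0 := by
  classical
  haveI := Fintype.ofFinite h.E
  let f : (α → k) →ₗ[k] V :=
    ∑ b : α, (LinearMap.proj b : (α → k) →ₗ[k] k).smulRight (h.phi ρ w b h.a)
  have hf : ∀ F : α → k, f F = ∑ b, F b • h.phi ρ w b h.a := fun F => by simp [f]
  refine ⟨f, fun g F hF => ?_, ?_⟩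
  · rw [hf, hf, map_sum]
    have e1 : ∑ b, Cfsg.permRep k G α g F b • h.phi ρ w b h.a
        = ∑ b, F b • h.phi ρ w (g • b) h.a :=
      Fintype.sum_equiv (MulAction.toPerm g⁻¹) _ _ fun b => by
        simp [CfsgLib.PermGroups.permRep_apply]
    have e2 : ∀ b, F b • h.phi ρ w (g • b) h.a
        = ρ g (F b • h.phi ρ w b h.a) + F b • h.phi ρ w (g • h.a) h.a := fun b => by
      rw [map_smul, ← smul_add, ← h.phi_equivariant ρ hw.2.1, h.phi_add]
    rw [e1, Finset.sum_congr rfl fun b _ => e2 b, Finset.sum_add_distrib, ← Finset.sum_smul, hF,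
      zero_smul, add_zero]
  · refine ⟨Pi.single (h.v • h.a) 1 - Pi.single h.a 1, by simp [Finset.sum_sub_distrib], ?_⟩
    have h0 : h.phi ρ w h.a h.a = 0 := by
      simp [phi, psiQ, psi]
    have e : f (Pi.single (h.v • h.a) 1 - Pi.single h.a 1) = h.phi ρ w (h.v • h.a) h.a := by
      rw [map_sub, hf, hf]
      simp [Pi.single_apply, ite_smul, h0]
    rw [e]
    intro hz
    exact h.phi_notMem ρ hw (hz ▸ Submodule.zero_mem _)

end Hyp

end CfsgLib.PrimeTI
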