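import Cfsg.Agent.Lib.PrimeTI.Coherent
import Cfsg.Agent.Lib.PrimeTI.TraceMap
import Cfsg.Agent.Lib.BrauerCharacters.Reduction
import Cfsg.Agent.Lib.PermGroups.HeartPrimeDegree
import Cfsg.Agent.S0671
import Mathlib.RingTheory.LocalRing.ResidueField.Basic

/-!
# The three-dimensional module in characteristic `p`
-/

set_option autoImplicit false
set_option linter.unusedSectionVars false
set_option linter.style.haveILetI false

namespace CfsgLib.PrimeTI

open Cfsg MulAction CfsgLib.CharTheory

/-- Traces on an invariant subspace and its quotient add up. -/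
theorem trace_eq_restrict_add_mapQ {k V : Type*} [Field k] [AddCommGroup V] [Module k V]
    [FiniteDimensional k V] (f : Module.End k V) (U : Submodule k V) (hU : U ≤ U.comap f) :
    LinearMap.trace k V f = LinearMap.trace k U (f.restrict fun u hu => hU hu)
      + LinearMap.trace k (V ⧸ U) (U.mapQ U f hU) := by
  obtain ⟨C, hC⟩ := Submodule.exists_isCompl U
  let P : V →ₗ[k] U := Submodule.projectionOnto U C hC
  let s : (V ⧸ U) →ₗ[k] V := C.subtype ∘ₗ (Submodule.quotientEquivOfIsCompl U C hC).toLinearMap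
  have hs : U.subtype ∘ₗ P + s ∘ₗ U.mkQ = LinearMap.id := by
    refine LinearMap.ext fun u => ?_
    obtain ⟨a, b, rfl, -⟩ := Submodule.existsUnique_add_of_isCompl hC u
    simp [P, s, Submodule.quotientEquivOfIsCompl_apply_mk, Submodule.projectionOnto_apply_left,
      Submodule.projectionOnto_apply_right]
  have e1 : f.restrict (p := U) (q := U) (fun u hu => hU hu) = P ∘ₗ (f ∘ₗ U.subtype) := by
    refine LinearMap.ext fun u => ?_
    exact (Submodule.projectionOnto_apply_left hC ⟨f (u : V), hU u.2⟩).symm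
  have e2 : U.mapQ U f hU = U.mkQ ∘ₗ (f ∘ₗ s) := by
    refine LinearMap.ext fun q => ?_
    induction q using Submodule.Quotient.induction_on with
    | _ u =>
      have hu := LinearMap.congr_fun hs u
      simp only [LinearMap.add_apply, LinearMap.comp_apply, LinearMap.id_apply, Submodule.mkQ_apply,
        Submodule.coe_subtype] at hu
      show Submodule.Quotient.mk (f u) = Submodule.Quotient.mk (f (s (Submodule.Quotient.mk u)))
      conv_lhs => rw [← hu]
      rw [map_add, Submodule.Quotient.mk_add,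
        (Submodule.Quotient.mk_eq_zero U).2 (hU (P u).2), zero_add]
  rw [e1, e2, LinearMap.trace_comp_comm' (f ∘ₗ U.subtype) P, LinearMap.trace_comp_comm' (f ∘ₗ s) U.mkQ, ← map_add,
    LinearMap.comp_assoc, LinearMap.comp_assoc, ← LinearMap.comp_add, hs, LinearMap.comp_id]

section Valuation

variable {p : ℕ} [Fact p.Prime] {O : ValuationSubring ℂ}

theorem charP_residue (hO : (p : ℂ) ∈ O.nonunits) : CharP (IsLocalRing.ResidueField O) p := by
  refine (CharP.charP_iff_prime_eq_zero (Fact.out : p.Prime)).2 ?_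
  rw [← map_natCast (IsLocalRing.residue O) p, IsLocalRing.residue_eq_zero_iff,
    IsLocalRing.mem_maximalIdeal, mem_nonunits_iff]
  intro hu
  rw [ValuationSubring.mem_nonunits_iff] at hO
  have h1 := (O.valuation_eq_one_iff (p : O)).1 hu
  rw [show (((p : O)) : ℂ) = (p : ℂ) from map_natCast O.subtype p] at h1
  exact hO.ne h1

theorem mem_of_pow_eq_one {z : ℂ} {e : ℕ} (he : e ≠ 0) (hz : z ^ e = 1) : z ∈ O := by
  rw [← O.valuation_le_one_iff]
  by_contra hlt
  rw [not_le] at hlt
  have := one_lt_pow₀ hlt he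
  rw [← map_pow, hz, map_one] at this
  exact lt_irrefl _ this

theorem eq_one_of_residue_eq_one [CharP (IsLocalRing.ResidueField O) p] {e : ℕ} (he : ¬ p ∣ e)
    {w : O} (hw : w ^ e = 1) (hr : IsLocalRing.residue O w = 1) : w = 1 := by
  have h1 : (∑ i ∈ Finset.range e, w ^ i) * (w - 1) = 0 := by rw [geom_sum_mul, hw, sub_self]
  rcases mul_eq_zero.1 h1 with h2 | h2
  · have h3 := congrArg (IsLocalRing.residue O) h2
    simp only [map_sum, map_pow, hr, one_pow, Finset.sum_const, Finset.card_range, nsmul_one,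
      map_zero] at h3
    exact absurd ((CharP.cast_eq_zero_iff _ p e).1 h3) he
  · exact sub_eq_zero.1 h2

end Valuation

variable {G α : Type*} [Group G] [Fintype G] [MulAction G α] [FaithfulSMul G α]
  [IsPretransitive G α] {p : ℕ} [Fact p.Prime] (h : Hyp G α p)

namespace Hyp

include h

theorem not_dvd_card_E : ¬ p ∣ Nat.card h.E := by
  intro hd
  have h1 := Nat.le_of_dvd (by have := h.three_le; omega) (hd.trans h.card_E_dvd)
  have := h.three_le
  omega

/-- The Teichmüller lift of the action of `E` on `P`. -/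
theorem exists_lift (O : ValuationSubring ℂ) [CharP (IsLocalRing.ResidueField O) p] :
    ∃ l : h.E →* ℂˣ, ∀ y : h.E, ∃ z : O, (z : ℂ) = (l y : ℂ) ∧
      IsLocalRing.residue O z = h.nk (IsLocalRing.ResidueField O) y := by
  set k := IsLocalRing.ResidueField O
  set e := Nat.card h.E
  have he : e ≠ 0 := Nat.card_pos.ne'
  have hz := Complex.isPrimitiveRoot_exp e he
  set Z : O := ⟨_, mem_of_pow_eq_one he hz.pow_eq_one⟩
  have hZ : IsPrimitiveRoot Z e := IsPrimitiveRoot.of_map_of_injective (f := O.subtype) hz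
    Subtype.val_injective
  have hres : IsPrimitiveRoot (IsLocalRing.residue O Z) e := by
    refine ⟨by rw [← map_pow, hZ.pow_eq_one, map_one], fun d hd => ?_⟩
    rw [← map_pow] at hd
    refine hZ.dvd_of_pow_eq_one d (eq_one_of_residue_eq_one h.not_dvd_card_E ?_ hd)
    rw [← pow_mul, mul_comm, pow_mul, hZ.pow_eq_one, one_pow]
  haveI : NeZero e := ⟨he⟩
  have hex : ∀ y : h.E, ∃ i, i < e ∧ IsLocalRing.residue O Z ^ i = h.nk k y := fun y =>
    hres.eq_pow_of_pow_eq_one (by rw [← map_pow, pow_card_eq_one', map_one])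
  choose i hi hi' using hex
  have hinj : ∀ u w : ℕ, IsLocalRing.residue O Z ^ u = IsLocalRing.residue O Z ^ w →
      (Z : ℂ) ^ u = (Z : ℂ) ^ w := by
    intro u w huw
    have h1 : (Z ^ u * Z ^ ((e - 1) * w)) = 1 := by
      refine eq_one_of_residue_eq_one h.not_dvd_card_E ?_ ?_
      · rw [← pow_add, ← pow_mul, mul_comm, pow_mul, hZ.pow_eq_one, one_pow]
      · rw [map_mul, map_pow, map_pow, huw, ← pow_add, show w + (e - 1) * w = e * w by
          obtain ⟨c, hc⟩ := Nat.exists_eq_succ_of_ne_zero he
          rw [hc, Nat.succ_sub_one, Nat.succ_mul, add_comm], pow_mul, hres.pow_eq_one, one_pow]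
    have h2 : (Z : ℂ) ^ u * (Z : ℂ) ^ ((e - 1) * w) = 1 := by
      have := congrArg Subtype.val h1
      simpa using this
    have h3 : (Z : ℂ) ^ w * (Z : ℂ) ^ ((e - 1) * w) = 1 := by
      rw [← pow_add, show w + (e - 1) * w = e * w by
        obtain ⟨c, hc⟩ := Nat.exists_eq_succ_of_ne_zero he
        rw [hc, Nat.succ_sub_one, Nat.succ_mul, add_comm], pow_mul, hz.pow_eq_one, one_pow]
    exact mul_right_cancel₀ (right_ne_zero_of_mul_eq_one h2) (h2.trans h3.symm)
  let f : h.E →* ℂ :=
    { toFun := fun y => (Z : ℂ) ^ i y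
      map_one' := by rw [← pow_zero (Z : ℂ)]; exact hinj _ _ (by rw [hi', map_one, pow_zero])
      map_mul' := fun a b => by
        rw [← pow_add]; exact hinj _ _ (by rw [hi', map_mul, pow_add, hi', hi']) }
  refine ⟨f.toHomUnits, fun y => ⟨Z ^ i y, ?_, ?_⟩⟩
  · rw [MonoidHom.coe_toHomUnits]; simp [f]
  · rw [map_pow, hi']

theorem two_transitive : IsMultiplyPretransitive G α 2 := by
  classical
  haveI := h.finite
  haveI := Fintype.ofFinite α
  have hns : ¬ Group.IsSolvable G := fun hs => by
    haveI : Nontrivial G := ⟨⟨h.v, 1, h.v_ne_one⟩⟩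
    exact Group.IsSolvable.commutator_lt_top_of_nontrivial G |>.ne h.perfect
  have hα : Fintype.card α = p := Nat.card_eq_fintype_card.symm.trans h.card
  exact (Cfsg.Agent.S0671.result (K := ZMod p) (p := p) (f := 1) le_rfl
    (by rw [pow_one, hα]) fun W W' h1 h2 h3 =>
      CfsgLib.PermGroups.heart_no_trivial_factor hα hns W.toSubmodule W'.toSubmodule
        (fun g v hv => W.apply_mem_toSubmodule g hv) (fun g v hv => W'.apply_mem_toSubmodule g hv)
        h1 h2 h3)

theorem not_isSolvable : ¬ Group.IsSolvable G := fun hs => by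
  haveI : Nontrivial G := ⟨⟨h.v, 1, h.v_ne_one⟩⟩
  exact Group.IsSolvable.commutator_lt_top_of_nontrivial G |>.ne h.perfect

theorem isSimpleGroup : IsSimpleGroup G := by
  haveI : Nontrivial G := ⟨⟨h.v, 1, h.v_ne_one⟩⟩
  refine { eq_bot_or_eq_top_of_normal := fun M hM => or_iff_not_imp_left.2 fun hne => ?_ }
  haveI := hM
  have hPM : (h.P : Subgroup G) ≤ M :=
    CfsgLib.PermGroups.le_of_normal_prime_degree (α := α) h.card M hne h.P
  have hNM := h.P.normalizer_sup_eq_top' hPM
  -- `G / M` is abelian and `G` is perfect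
  have hc : commutator G ≤ M := by
    have hcomm : ∀ a b : G ⧸ M, a * b = b * a := by
      have hsurj : ∀ q : G ⧸ M, ∃ y : h.E, ((y : G) : G ⧸ M) = q := by
        intro q
        induction q using QuotientGroup.induction_on with
        | H g =>
          have hg : g ∈ ((Subgroup.normalizer ((h.P : Subgroup G) : Set G) ⊔ M : Subgroup G)) := by
            change g ∈ Subgroup.normalizer (h.P : Set G) ⊔ M
            rw [hNM]; exact Subgroup.mem_top g
          obtain ⟨n, hn, m, hm, rfl⟩ := (Subgroup.mem_sup_of_normal_right (t := M)).1 hg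
          rw [← h.sup_eq, sup_comm] at hn
          have hset := Subgroup.coe_mul_of_left_le_normalizer_right h.E (h.P : Subgroup G) h.E_le
          have hn2 : n ∈ ((h.E ⊔ (h.P : Subgroup G) : Subgroup G) : Set G) := hn
          rw [hset] at hn2
          obtain ⟨y, hy, u, hu, rfl⟩ := hn2
          refine ⟨⟨y, hy⟩, QuotientGroup.eq.2 ?_⟩
          show y⁻¹ * (y * u * m) ∈ M
          rw [mul_assoc y, inv_mul_cancel_left]
          exact mul_mem (hPM hu) hm
      intro a b
      obtain ⟨y, rfl⟩ := hsurj a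
      obtain ⟨z, rfl⟩ := hsurj b
      rw [← QuotientGroup.mk_mul, ← QuotientGroup.mk_mul, ← Subgroup.coe_mul,
        (h.E_comm y z).eq, Subgroup.coe_mul]
    rw [commutator_def, Subgroup.commutator_le]
    intro a _ b _
    rw [← QuotientGroup.eq_one_iff, ← QuotientGroup.mk'_apply, map_commutatorElement,
      commutatorElement_eq_one_iff_mul_comm]
    exact hcomm _ _
  rw [h.perfect] at hc
  exact top_le_iff.1 hc

end Hyp

end CfsgLib.PrimeTI
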