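import Cfsg.Agent.Lib.PrimeTI.ThreeDim
import Cfsg.Agent.Lib.PrimeTI.Axes
import Cfsg.Agent.Lib.Coherence.Constituent
import Mathlib.GroupTheory.GroupAction.MultipleTransitivity
import Mathlib.RingTheory.IntegralDomain

/-!
# The order of the group when `|E| ≥ 3`
-/

set_option autoImplicit false
set_option linter.unusedSectionVars false
set_option linter.style.haveILetI false
set_option maxHeartbeats 800000

namespace CfsgLib.PrimeTI

open Cfsg MulAction CfsgLib.CharTheory CfsgLib.Frobenius
open scoped ComplexConjugate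

variable {G α : Type*} [Group G] [Fintype G] [MulAction G α] [FaithfulSMul G α]
  [IsPretransitive G α] {p : ℕ} [Fact p.Prime] (h : Hyp G α p)

namespace Hyp

include h

theorem card_eq : Nat.card G = p * Nat.card (stabilizer G h.a) := by
  haveI := h.finite
  rw [← (stabilizer G h.a).card_mul_index, index_stabilizer_of_transitive, h.card, mul_comm]

theorem not_dvd_card_stabilizer : ¬ p ∣ Nat.card (stabilizer G h.a) := fun hd =>
  h.not_sq_dvd_card (by rw [h.card_eq, pow_two]; exact Nat.mul_dvd_mul_left p hd)

theorem exists_modEq : ∃ n : ℕ, Nat.card (stabilizer G h.a) = n * Nat.card h.E ∧ n ≡ 1 [MOD p] := by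
  have hp : p.Prime := Fact.out
  refine ⟨Nat.card (Sylow p G), ?_, card_sylow_modEq_one p G⟩
  have h1 := CfsgLib.PermGroups.card_eq_natCard_sylow_mul h.P
  rw [h.card_N, h.card_eq, ← mul_assoc, mul_comm _ p, mul_assoc] at h1
  exact Nat.eq_of_mul_eq_mul_left hp.pos h1

theorem exists_other : ∃ b : α, b ≠ h.a :=
  ⟨h.v • h.a, fun e => by
    have e1 : h.pt h.a 1 = h.pt h.a 0 := by rw [h.pt_zero, pt, h.vp_one]; exact e
    exact one_ne_zero ((h.pt_bijective h.a).1 e1)⟩

theorem mem_orbit_of_ne {b c : α} (hb : b ≠ h.a) (hc : c ≠ h.a) :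
    c ∈ orbit (stabilizer G h.a) b := by
  obtain ⟨g, hga, hgb⟩ := is_two_pretransitive_iff.1 h.two_transitive (Ne.symm hb) (Ne.symm hc)
  exact ⟨⟨g, hga⟩, hgb⟩

theorem pred_dvd_card_stabilizer : p - 1 ∣ Nat.card (stabilizer G h.a) := by
  classical
  haveI := h.finite
  haveI := Fintype.ofFinite α
  obtain ⟨b, hb⟩ := h.exists_other
  have horb : orbit (stabilizer G h.a) b = {c | c ≠ h.a} := by
    ext c
    refine ⟨?_, h.mem_orbit_of_ne hb⟩
    rintro ⟨g, rfl⟩ (e : (g : G) • b = h.a)
    refine hb ?_
    rw [← smul_left_cancel_iff (g : G), e, mem_stabilizer_iff.1 g.2]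
  have h1 : Nat.card (orbit (stabilizer G h.a) b) = p - 1 := by
    rw [horb, Nat.card_eq_fintype_card]
    have := Fintype.card_subtype_compl (fun c : α => c = h.a)
    rw [Fintype.card_subtype_eq, ← Nat.card_eq_fintype_card (α := α), h.card] at this
    exact this
  have h2 := (stabilizer (stabilizer G h.a) b).index_dvd_card
  rwa [index_stabilizer, ← Nat.card_coe_set_eq, h1] at h2

/-- The sum of `ε (fix - 2)` over the point stabilizer vanishes. -/
theorem sum_sign_fix [Fintype (stabilizer G h.a)] (ε : stabilizer G h.a →* ℤˣ) :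
    ∑ g : stabilizer G h.a, ((ε g : ℤ) : ℂ) * ((Nat.card (fixedBy α (g : G)) : ℂ) - 2) = 0 := by
  classical
  haveI := h.finite
  haveI := Fintype.ofFinite α
  obtain ⟨b, hb⟩ := h.exists_other
  by_cases hε : ε = 1
  · subst hε
    have h2 : Nat.card (orbitRel.Quotient (stabilizer G h.a) α) = 2 := by
      rw [Nat.card_eq_two_iff]
      refine ⟨Quotient.mk'' h.a, Quotient.mk'' b, fun e => hb ?_, Set.eq_univ_of_forall fun q => ?_⟩
      · obtain ⟨g, hg⟩ := orbitRel_apply.1 (Quotient.eq''.1 e.symm)
        exact hg.symm.trans g.2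
      · induction q using Quotient.inductionOn' with
        | h c =>
          by_cases hc : c = h.a
          · exact Or.inl (by rw [hc])
          · exact Or.inr (Set.mem_singleton_iff.2
              (Quotient.eq''.2 (orbitRel_apply.2 (h.mem_orbit_of_ne hb hc))))
    have h3 : classInner (fun g : (stabilizer G h.a) => (Nat.card (fixedBy α g) : ℂ)) (fun _ => 1) = 2 := by
      rw [classInner_card_fixedBy_one, h2]; norm_num
    simp only [classInner, map_one, mul_one] at h3
    rw [inv_mul_eq_iff_eq_mul₀ (Nat.cast_ne_zero.2 Nat.card_pos.ne')] at h3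
    simp only [MonoidHom.one_apply, Units.val_one, Int.cast_one, one_mul, Finset.sum_sub_distrib,
      Finset.sum_const, Finset.card_univ, ← Nat.card_eq_fintype_card, nsmul_eq_mul]
    rw [show ∑ g : (stabilizer G h.a), (Nat.card (fixedBy α (g : G)) : ℂ) = (Nat.card (stabilizer G h.a) : ℂ) * 2 from h3]
    ring
  · let εc : (stabilizer G h.a) →* ℂˣ := (Units.map (Int.castRingHom ℂ).toMonoidHom).comp ε
    have hεc : ∀ g, (εc g : ℂ) = ((ε g : ℤ) : ℂ) := fun g => rfl
    have hεc1 : εc ≠ 1 := fun e => hε (MonoidHom.ext fun g => Units.ext (by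
      have := congrArg Units.val (DFunLike.congr_fun e g)
      rw [hεc, MonoidHom.one_apply, Units.val_one] at this
      rw [MonoidHom.one_apply, Units.val_one]
      exact_mod_cast this))
    set F := indFun (stabilizer G h.a) (fun g => (εc g : ℂ)) with hF
    have hFc : IsCharacter G F := isCharacter_indFun (stabilizer G h.a) _ (IsIrrCharacter.isCharacter (isIrrCharacter_linear εc))
    set θ : G → ℂ := fun g => (Nat.card (fixedBy α g) : ℂ) - 1 with hθdef
    have hθ : IsIrrCharacter G θ :=
      (isIrrCharacter_card_fixedBy_sub_one_iff α (by rw [h.card]; exact (Fact.out : p.Prime).two_le)).2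
        h.two_transitive
    have hF1 : classInner F (fun _ => 1) = 0 := by
      rw [hF, classInner_indFun (stabilizer G h.a) _ _ (IsIrrCharacter.isClassFunction isIrrCharacter_one),
        show (fun _ : (stabilizer G h.a) => (1 : ℂ)) = fun g => ((1 : (stabilizer G h.a) →* ℂˣ) g : ℂ) by funext g; simp]
      exact classInner_eq_zero_of_ne (isIrrCharacter_linear εc) (isIrrCharacter_linear 1)
        fun e => hεc1 (linear_inj e)
    have hθ0 : classInner F θ = 0 := by
      by_contra hne
      have hsub := CfsgLib.Coherence.isCharacter_sub_constituent hFc hθ hne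
      have hd : (F - θ) 1 = 1 := by
        rw [Pi.sub_apply, hF, indFun_one, index_stabilizer_of_transitive, h.card, map_one,
          Units.val_one, mul_one]
        show (p : ℂ) - ((Nat.card (fixedBy α (1 : G)) : ℂ) - 1) = 1
        rw [show fixedBy α (1 : G) = Set.univ from Set.eq_univ_of_forall fun b => one_smul G b,
          Nat.card_univ, h.card]
        ring
      obtain ⟨l, hl⟩ := CfsgLib.Clifford.exists_linFun_of_isCharacter hsub hd
      have hl1 : l = 1 := MonoidHom.ext fun g => MonoidHom.mem_ker.1
        (Abelianization.commutator_subset_ker l (by rw [h.perfect]; exact Subgroup.mem_top g))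
      have hone : θ ≠ fun _ => 1 := fun e => by
        have h1 := congrFun e 1
        simp only [θ] at h1
        rw [show fixedBy α (1 : G) = Set.univ from Set.eq_univ_of_forall fun b => one_smul G b,
          Nat.card_univ, h.card] at h1
        have h2 : (p : ℂ) = ((2 : ℕ) : ℂ) := by push_cast; linear_combination h1
        have h4 : p = 2 := by exact_mod_cast h2
        have := h.three_le
        omega
      have hF' : F = θ + fun _ => 1 := by
        rw [← sub_eq_iff_eq_add', hl, hl1]; funext g; simp [CfsgLib.Clifford.linFun_apply]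
      rw [hF', classInner_add_left, classInner_self_of_isIrr isIrrCharacter_one,
        classInner_eq_zero_of_ne hθ isIrrCharacter_one hone] at hF1
      simp at hF1
    have key : classInner (fun g : (stabilizer G h.a) => (εc g : ℂ)) (fun g : (stabilizer G h.a) => θ (g : G)) = 0 := by
      rw [← classInner_indFun (stabilizer G h.a) _ _ (IsIrrCharacter.isClassFunction hθ)]; exact hθ0
    have key2 : classInner (fun g : (stabilizer G h.a) => (εc g : ℂ)) (fun _ : (stabilizer G h.a) => (1 : ℂ)) = 0 := by
      rw [← classInner_indFun (stabilizer G h.a) _ _ (IsIrrCharacter.isClassFunction isIrrCharacter_one)]; exact hF1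
    simp only [classInner, mul_eq_zero, inv_eq_zero, Nat.cast_eq_zero, Nat.card_pos.ne', false_or,
      map_sub, map_natCast, map_one, θ, hεc, mul_one] at key key2
    simp only [mul_sub, mul_one, Finset.sum_sub_distrib, key2, sub_zero] at key
    simp only [mul_sub, Finset.sum_sub_distrib, key, ← Finset.sum_mul, key2, zero_mul, sub_zero]

/-- The order of the point stabilizer. -/
theorem card_cases (hE : 3 ≤ Nat.card h.E) (ht : Nat.card h.E ≠ p - 1) :
    (p = 7 ∧ Nat.card G = 168 ∧ Nat.card h.E = 3) ∨ (p = 11 ∧ Nat.card G = 660 ∧ Nat.card h.E = 5) := by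
  classical
  haveI := h.finite
  haveI := Fintype.ofFinite α
  have hp : p.Prime := Fact.out
  obtain ⟨O, hch, l, τ, ⟨hl1, hl2⟩, hτ, htr⟩ := h.exists_three hE ht
  set k := IsLocalRing.ResidueField O
  set S := stabilizer G h.a
  haveI := Fintype.ofFinite S
  have hES : h.E ≤ S := fun y hy => h.smul_a ⟨y, hy⟩
  have hNS : Subgroup.normalizer (h.E : Set G) ≤ S := fun y hy => h.smul_a_of_mem_normalizer hy
  set X : G → ℂ := fun g => 1 + (h.St : G → ℂ) g + h.al l g with hX
  have hXirr : IsIrrCharacter G X := h.exists_principal_series hl1 hl2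
  have hXc : ∀ g, conj (X g) = X g := fun g => by simp [X, h.St_real, h.conj_al]
  choose x hx hxt using htr
  have hinv : ∀ g : G, (τ g⁻¹).trace = (τ g).trace := fun g => by
    rw [hxt, hxt, fixedBy_inv, show x g⁻¹ = x g from Subtype.ext (by
      rw [hx, hx]
      change X g⁻¹ = X g
      rw [IsIrrCharacter.inv hXirr, hXc])]
  let τS : S →* Matrix (Fin 3) (Fin 3) k := τ.comp S.subtype
  have hNk : (Nat.card S : k) ≠ 0 := by
    rw [Ne, CharP.cast_eq_zero_iff k p]; exact h.not_dvd_card_stabilizer
  have h2k : (2 : k) ≠ 0 := fun e => by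
    have h4 : ((2 : ℕ) : k) = 0 := by simpa using e
    rw [CharP.cast_eq_zero_iff k p] at h4
    have := Nat.le_of_dvd two_pos h4
    have := h.three_le
    omega
  haveI := h.isCyclic_E
  obtain ⟨x₀, hx₀⟩ := IsCyclic.exists_generator (α := h.E)
  have hline : ∀ w : Fin 3 → k, w ≠ 0 → ∀ ε : S →* ℤˣ,
      (∀ g, act τS g w = ((ε g : ℤ) : k) • w) → False := by
    intro w hw ε hwε
    set A : Module.End k (Fin 3 → k) :=
      (Nat.card S : k)⁻¹ • ∑ g : S, ((ε g : ℤ) : k) • act τS g with hA
    have hεε : ∀ g : S, ((ε g : ℤ) : k) * ((ε g : ℤ) : k) = 1 := fun g => by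
      rw [← Int.cast_mul, ← Units.val_mul, Int.units_mul_self, Units.val_one, Int.cast_one]
    have hfix : ∀ y, (∀ g, act τS g y = ((ε g : ℤ) : k) • y) → A y = y := by
      intro y hy
      rw [hA, LinearMap.smul_apply, LinearMap.sum_apply]
      simp only [LinearMap.smul_apply, hy, smul_smul, hεε, one_smul, Finset.sum_const,
        Finset.card_univ, ← Nat.card_eq_fintype_card]
      rw [← Nat.cast_smul_eq_nsmul k, smul_smul, inv_mul_cancel₀ hNk, one_smul]
    have himg : ∀ y g, act τS g (A y) = ((ε g : ℤ) : k) • A y := by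
      intro y g
      rw [hA]
      simp only [LinearMap.smul_apply, LinearMap.sum_apply, map_smul, map_sum]
      rw [smul_comm ((ε g : ℤ) : k) (Nat.card S : k)⁻¹]
      congr 1
      rw [Finset.smul_sum]
      refine Fintype.sum_equiv (Equiv.mulLeft g)
        (fun s : S => ((ε s : ℤ) : k) • act τS g (act τS s y))
        (fun s : S => ((ε g : ℤ) : k) • ((ε s : ℤ) : k) • act τS s y) fun s => ?_
      show ((ε s : ℤ) : k) • act τS g (act τS s y) =
        ((ε g : ℤ) : k) • ((ε (g * s) : ℤ) : k) • act τS (g * s) y
      rw [act_mul_apply, smul_smul, map_mul, Units.val_mul, Int.cast_mul, ← mul_assoc, hεε, one_mul]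
    have hproj : LinearMap.IsProj (LinearMap.range A) A :=
      ⟨fun y => LinearMap.mem_range_self A y, fun y hy => by
        obtain ⟨z, rfl⟩ := hy; exact hfix _ (himg z)⟩
    have htA := hproj.trace
    rw [hA, map_smul, map_sum, ← hA] at htA
    simp only [map_smul, smul_eq_mul, trace_act, τS, MonoidHom.comp_apply, Subgroup.coe_subtype,
      hxt] at htA
    have hsum : ∑ g : S, ((ε g : ℤ) : k) *
        (IsLocalRing.residue O (x (g : G)) - ((Nat.card (fixedBy α (g : G)) : k) - 2)) = 0 := by
      have e1 : ∑ g : S, ((ε g : ℤ) : O) * (x (g : G) - ((Nat.card (fixedBy α (g : G)) : O) - 2)) = 0 := by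
        apply Subtype.val_injective
        change O.subtype (∑ g : S, ((ε g : ℤ) : O) * (x (g : G) - ((Nat.card (fixedBy α (g : G)) : O) - 2)))
          = O.subtype 0
        simp only [map_sum, map_mul, map_sub, map_intCast, map_natCast, map_ofNat, map_zero]
        simp only [ValuationSubring.coe_subtype, hx]
        have e2 : ∑ g : S, ((ε g : ℤ) : ℂ) * X (g : G) = 0 := by
          let εc : S →* ℂˣ := (Units.map (Int.castRingHom ℂ).toMonoidHom).comp ε
          have h0 : classInner (indFun S fun g => (εc g : ℂ)) X = 0 := by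
            by_contra hne
            have h1 := CfsgLib.Coherence.constituent_degree_le
              (isCharacter_indFun S _ (IsIrrCharacter.isCharacter (isIrrCharacter_linear εc)))
              hXirr hne
            rw [indFun_one, index_stabilizer_of_transitive, h.card, map_one, Units.val_one,
              mul_one] at h1
            simp [X, h.St_one, h.al_one] at h1
            all_goals linarith
          rw [classInner_indFun S _ _ (IsIrrCharacter.isClassFunction hXirr)] at h0
          simp only [classInner, mul_eq_zero, inv_eq_zero, Nat.cast_eq_zero, Nat.card_pos.ne',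
            false_or, hXc] at h0
          exact h0
        have e3 := h.sum_sign_fix ε
        calc _ = ∑ g : S, ((ε g : ℤ) : ℂ) * X (g : G)
              - ∑ g : S, ((ε g : ℤ) : ℂ) * ((Nat.card (fixedBy α (g : G)) : ℂ) - 2) := by
                rw [← Finset.sum_sub_distrib]
                exact Finset.sum_congr rfl fun g _ => by simp only [X]; ring
          _ = 0 := by rw [e2, e3, sub_zero]
      have := congrArg (IsLocalRing.residue O) e1
      simpa only [map_sum, map_mul, map_sub, map_intCast, map_natCast, map_ofNat, map_zero] using this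
    rw [hsum, mul_zero] at htA
    have hd : p ∣ Module.finrank k (LinearMap.range A) :=
      (CharP.cast_eq_zero_iff k p _).1 htA.symm
    have h3 : Module.finrank k (LinearMap.range A) ≤ 3 :=
      (Submodule.finrank_le _).trans_eq (Module.finrank_fin_fun k)
    have h1 : 1 ≤ Module.finrank k (LinearMap.range A) := by
      by_contra hlt
      have h0 : LinearMap.range A = ⊥ := Submodule.finrank_eq_zero.1 (by omega)
      have hmem : A w ∈ LinearMap.range A := LinearMap.mem_range_self A w
      rw [hfix w hwε, h0, Submodule.mem_bot] at hmem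
      exact hw hmem
    have := Nat.le_of_dvd (by omega) hd
    obtain ⟨t, ht'⟩ := h.card_E_dvd
    rcases t with _ | _ | t
    · have := hp.two_le
      omega
    · rw [Nat.zero_add, mul_one] at ht'; omega
    · have : 3 * 2 ≤ Nat.card h.E * (t + 1 + 1) := Nat.mul_le_mul hE (by omega)
      omega
  have hM : ∀ g ∈ (Subgroup.normalizer (h.E : Set G)).subgroupOf S,
      g * ⟨(x₀ : G), hES x₀.2⟩ * g⁻¹ ∈ h.E.subgroupOf S := fun g hg => by
    rw [Subgroup.mem_subgroupOf]
    exact (Subgroup.mem_normalizer_iff.1 (Subgroup.mem_subgroupOf.1 hg) x₀).1 x₀.2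
  have hcE : Nat.card (h.E.subgroupOf S) = Nat.card h.E :=
    Nat.card_congr (Subgroup.subgroupOfEquivOfLe hES).toEquiv
  have hcM : Nat.card ((Subgroup.normalizer (h.E : Set G)).subgroupOf S) = 2 * Nat.card h.E :=
    (Nat.card_congr (Subgroup.subgroupOfEquivOfLe hNS).toEquiv).trans h.card_norm
  obtain ⟨hN, hE5⟩ := axes_order τS (hτ.comp Subtype.val_injective)
    (fun g => det_eq_one_of_perfect h.perfect τ g) (fun g => hinv g) hNk h2k
    (h.E.subgroupOf S) ((Subgroup.normalizer (h.E : Set G)).subgroupOf S) ⟨(x₀ : G), hES x₀.2⟩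
    (Subgroup.mem_subgroupOf.2 x₀.2) (fun y hy => by
      obtain ⟨m, hm⟩ := hx₀ ⟨y, hy⟩
      refine ⟨m, Subtype.ext ?_⟩
      have := congrArg Subtype.val hm
      simpa using this) (hcE.symm ▸ hE) hM (by rw [hcE, hcM]) hline
  rw [hcE] at hE5
  obtain ⟨n, hn, hn1⟩ := h.exists_modEq
  have hdvd : 2 * Nat.card h.E ∣ Nat.card S := hcM ▸ Subgroup.card_subgroup_dvd_card _
  have hp1 := h.pred_dvd_card_stabilizer
  have hE1 := h.card_E_dvd
  have hG := h.card_eq
  change Nat.card S = n * Nat.card h.E at hn
  change Nat.card G = p * Nat.card S at hG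
  change p - 1 ∣ Nat.card S at hp1
  have hmod : p ∣ n - 1 := (Nat.modEq_iff_dvd' (by
    rcases Nat.eq_zero_or_pos n with h0 | h0
    · exfalso
      rw [h0, zero_mul] at hn
      exact Nat.card_pos.ne' hn
    · exact h0)).1 hn1.symm
  have hp61 : p ≤ 61 := by
    have := Nat.le_of_dvd Nat.card_pos hp1
    omega
  generalize hN0 : Nat.card S = N at *
  generalize he0 : Nat.card h.E = e at *
  have hn20 : n ≤ 20 := by
    have : n * 3 ≤ n * e := Nat.mul_le_mul_left n hE
    omega
  have h2n : 2 ≤ n := by
    by_contra hlt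
    interval_cases n
    · omega
    · rw [one_mul] at hn
      have := Nat.le_of_dvd (by omega) hdvd
      omega
  have hpn : p ≤ n - 1 := Nat.le_of_dvd (by omega) hmod
  have hp7 : 7 ≤ p := by
    obtain ⟨t, ht'⟩ := hE1
    rcases t with _ | _ | t
    · have := hp.two_le; omega
    · rw [Nat.zero_add, mul_one] at ht'; omega
    · have : 3 * 2 ≤ e * (t + 1 + 1) := Nat.mul_le_mul hE (by omega)
      omega
  rcases hN with rfl | rfl | rfl <;> interval_cases e <;> first
    | (exfalso; omega)
    | (have hnval : n = 8 := by omega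
       subst hnval
       have hp' : p = 7 := by
         rcases (Nat.dvd_prime (by norm_num : Nat.Prime 7)).1 hmod with h7 | h7 <;> omega
       subst hp'
       exact Or.inl ⟨rfl, by omega, rfl⟩)
    | (have hnval : n = 12 := by omega
       subst hnval
       have hp' : p = 11 := by
         rcases (Nat.dvd_prime (by norm_num : Nat.Prime 11)).1 hmod with h7 | h7 <;> omega
       subst hp'
       exact Or.inr ⟨rfl, by omega, rfl⟩)
    | (have hnval : n = 20 := by omega
       subst hnval
       have hp' : p = 19 := by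
         rcases (Nat.dvd_prime (by norm_num : Nat.Prime 19)).1 hmod with h7 | h7 <;> omega
       subst hp'
       norm_num at hp1)

end Hyp

end CfsgLib.PrimeTI
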