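import Mathlib.GroupTheory.GroupAction.Quotient
import Mathlib.GroupTheory.GroupAction.ConjAct
import Mathlib.Tactic

/-!
# Counting poles

A finite group with a partition of its nontrivial elements by subgroups of index at most two in
the stabilizers of the poles, without fixed pole and with one pole of order at least three, has
order 12, 24 or 60.
-/

set_option autoImplicit false
set_option linter.unusedSectionVars false
set_option linter.style.haveILetI false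

namespace CfsgLib.PrimeTI

open MulAction

variable {H Λ : Type*} [Group H] [Finite H] [MulAction H Λ] [Finite Λ]

set_option maxHeartbeats 1600000 in
theorem poles_count (L : {x : H // x ≠ 1} → Λ) (hsurj : Function.Surjective L)
    (K : Λ → Subgroup H) (hK : ∀ (x : {x : H // x ≠ 1}) (l : Λ), (x : H) ∈ K l ↔ L x = l)
    (heq : ∀ (g : H) (x : {x : H // x ≠ 1}),
      L ⟨g * x * g⁻¹, fun e => x.2 (conj_eq_one_iff.1 e)⟩ = g • L x)
    (hidx : ∀ l, Nat.card (stabilizer H l) = Nat.card (K l) ∨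
      Nat.card (stabilizer H l) = 2 * Nat.card (K l))
    (hmove : ∀ l : Λ, ∃ g : H, g • l ≠ l) (l₀ : Λ) (h3 : 3 ≤ Nat.card (K l₀)) :
    (Nat.card H = 12 ∨ Nat.card H = 24 ∨ Nat.card H = 60) ∧ Nat.card (K l₀) ≤ 5 ∧
      (Nat.card (stabilizer H l₀) = 2 * Nat.card (K l₀) ∨
        (Nat.card (K l₀) = 3 ∧ Nat.card (stabilizer H l₀) = 3)) := by
  classical
  haveI := Fintype.ofFinite H
  haveI := Fintype.ofFinite Λ
  set N := Nat.card H with hN
  let c : Λ → ℕ := fun l => (Finset.univ.filter fun x => L x = l).card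
  have hc : ∀ l, c l + 1 = Nat.card (K l) := by
    intro l
    have e : Finset.univ.filter (fun y : H => y ∈ K l)
        = insert 1 ((Finset.univ.filter fun x => L x = l).image Subtype.val) := by
      ext y
      simp only [Finset.mem_filter, Finset.mem_univ, true_and, Finset.mem_insert, Finset.mem_image]
      constructor
      · intro hy
        by_cases hy1 : y = 1
        · exact Or.inl hy1
        · exact Or.inr ⟨⟨y, hy1⟩, (hK ⟨y, hy1⟩ l).1 hy, rfl⟩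
      · rintro (rfl | ⟨x, hx, rfl⟩)
        · exact one_mem _
        · exact (hK x l).2 hx
    rw [Nat.card_eq_fintype_card, Fintype.card_subtype, e, Finset.card_insert_of_notMem,
      Finset.card_image_of_injective _ Subtype.val_injective]
    simp only [Finset.mem_image, not_exists, not_and]
    exact fun x _ h1 => x.2 h1
  have hcpos : ∀ l, 1 ≤ c l := fun l => by
    obtain ⟨x, hx⟩ := hsurj l
    exact Finset.card_pos.2 ⟨x, Finset.mem_filter.2 ⟨Finset.mem_univ _, hx⟩⟩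
  have hconst : ∀ (g : H) l, c (g • l) = c l := by
    intro g l
    refine (Finset.card_nbij' (fun x => ⟨g * x * g⁻¹, fun e => x.2 (conj_eq_one_iff.1 e)⟩)
      (fun x => ⟨g⁻¹ * x * g⁻¹⁻¹, fun e => x.2 (conj_eq_one_iff.1 e)⟩) ?_ ?_ ?_ ?_).symm
    · intro x hx
      simp only [Finset.coe_filter, Finset.mem_univ, true_and, Set.mem_setOf_eq] at hx ⊢
      rw [heq, hx]
    · intro x hx
      simp only [Finset.coe_filter, Finset.mem_univ, true_and, Set.mem_setOf_eq] at hx ⊢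
      rw [heq, hx, inv_smul_smul]
    · intro x _; exact Subtype.ext (by simp [mul_assoc])
    · intro x _; exact Subtype.ext (by simp [mul_assoc])
  have htot : ∑ l, c l + 1 = N := by
    have h1 : (Finset.univ : Finset {x : H // x ≠ 1}).card = ∑ l, c l :=
      Finset.card_eq_sum_card_fiberwise fun x _ => Finset.mem_univ _
    rw [← h1, Finset.card_univ, Fintype.card_subtype_compl, Fintype.card_subtype_eq, hN,
      Nat.card_eq_fintype_card]
    have : 1 ≤ Fintype.card H := Fintype.card_pos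
    omega
  let O : Λ → Finset Λ := fun l => (orbit H l).toFinset
  let C : Λ → ℕ := fun l => ∑ z ∈ O l, c z
  have hC : ∀ l, C l = Nat.card (orbit H l) * c l := by
    intro l
    have : ∀ z ∈ O l, c z = c l := fun z hz => by
      obtain ⟨g, rfl⟩ := Set.mem_toFinset.1 hz
      exact hconst g l
    rw [show C l = ∑ z ∈ O l, c l from Finset.sum_congr rfl this, Finset.sum_const, smul_eq_mul,
      Set.toFinset_card, Nat.card_eq_fintype_card]
  have hm : ∀ l : Λ, 2 ≤ Nat.card (orbit H l) := by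
    intro l
    obtain ⟨g, hg⟩ := hmove l
    haveI : Nontrivial (orbit H l) :=
      ⟨⟨⟨g • l, mem_orbit l g⟩, ⟨l, mem_orbit_self l⟩, fun e => hg (congrArg Subtype.val e)⟩⟩
    exact Finite.one_lt_card
  have hos : ∀ l : Λ, Nat.card (orbit H l) * Nat.card (stabilizer H l) = N := fun l => by
    rw [hN, Nat.card_eq_fintype_card, Nat.card_eq_fintype_card, Nat.card_eq_fintype_card,
      card_orbit_mul_card_stabilizer_eq_card_group]
  -- the two types of orbits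
  have facts : ∀ l : Λ, ∃ n m : ℕ, n = Nat.card (K l) ∧ 2 ≤ n ∧ 2 ≤ m ∧
      ((Nat.card (stabilizer H l) = n ∧ m * n = N ∧ C l + m = N ∧ 2 * m ≤ N ∧
          (n = 2 → 2 * m = N) ∧ (3 ≤ n → 3 * m ≤ N)) ∨
        (Nat.card (stabilizer H l) = 2 * n ∧ m * (2 * n) = N ∧ 2 * (C l + m) = N ∧ 4 * m ≤ N ∧
          (n = 2 → 4 * m = N) ∧ (3 ≤ n → 6 * m ≤ N))) := by
    intro l
    refine ⟨_, Nat.card (orbit H l), rfl, by have := hc l; have := hcpos l; omega, hm l, ?_⟩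
    have h1 := hos l
    have hn : Nat.card (K l) = c l + 1 := (hc l).symm
    have h2 : 1 ≤ c l := hcpos l
    rcases hidx l with h | h
    · left
      rw [h] at h1
      refine ⟨h, h1, ?_, ?_, fun e => ?_, fun e => ?_⟩
      · rw [hC, ← h1, hn]; ring
      · rw [← h1, mul_comm 2]; exact Nat.mul_le_mul_left _ (by omega)
      · rw [← h1, e, mul_comm]
      · rw [← h1, mul_comm 3]; exact Nat.mul_le_mul_left _ e
    · right
      rw [h] at h1
      refine ⟨h, h1, ?_, ?_, fun e => ?_, fun e => ?_⟩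
      · rw [hC, ← h1, hn]; ring
      · rw [← h1, mul_comm 4]; exact Nat.mul_le_mul_left _ (by omega)
      · rw [← h1, e, mul_comm]
      · rw [← h1, mul_comm 6]; exact Nat.mul_le_mul_left _ (by omega)
  -- peeling orbits off
  have disj : ∀ {l z : Λ}, z ∉ O l → Disjoint (O l) (O z) := by
    intro l z hz
    rw [Finset.disjoint_left]
    intro w hw hw'
    apply hz
    rw [Set.mem_toFinset] at hw hw' ⊢
    rw [← orbit_eq_iff.2 hw, orbit_eq_iff.2 hw']
    exact mem_orbit_self z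
  have pick : ∀ S : Finset Λ, ∑ z ∈ S, c z + 1 < N → ∃ z, z ∉ S := by
    intro S hS
    by_contra! hall
    rw [show S = Finset.univ from Finset.eq_univ_iff_forall.2 hall] at hS
    omega
  have bnd : ∀ S : Finset Λ, ∑ z ∈ S, c z + 1 ≤ N := fun S => by
    have := Finset.sum_le_sum_of_subset (f := c) (Finset.subset_univ S)
    omega
  obtain ⟨n₀, m₀, hn₀, hn₀2, hm₀, hk₀⟩ := facts l₀
  rw [← hn₀] at h3 ⊢
  rcases hk₀ with ⟨hs₀, e₀, hC₀, -, -, b₀⟩ | ⟨hs₀, e₀, hC₀, -, -, b₀⟩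
  · -- index one: the order is twelve
    have b₀' := b₀ h3
    obtain ⟨l₁, hl₁⟩ := pick (O l₀) (by show C l₀ + 1 < N; omega)
    obtain ⟨n₁, m₁, hn₁, hn₁2, hm₁, hk₁⟩ := facts l₁
    have s₁ : ∑ z ∈ O l₀ ∪ O l₁, c z = C l₀ + C l₁ := Finset.sum_union (disj hl₁)
    have t₁ := bnd (O l₀ ∪ O l₁)
    rw [s₁] at t₁
    have hn3 : n₀ = 3 := by
      by_contra hne
      have : m₀ * 4 ≤ N := e₀ ▸ Nat.mul_le_mul_left _ (by omega)
      rcases hk₁ with ⟨-, -, a, b, -, -⟩ | ⟨-, -, a, b, -, -⟩ <;> omega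
    subst hn3
    rcases hk₁ with ⟨-, -, a, b, -, -⟩ | ⟨-, e₁, a, b, b2, b3⟩
    · omega
    have hstop : ∑ z ∈ O l₀ ∪ O l₁, c z + 1 = N := by
      by_contra hne
      obtain ⟨l₂, hl₂⟩ := pick (O l₀ ∪ O l₁) (by rw [s₁] at hne ⊢; omega)
      obtain ⟨n₂, m₂, -, -, -, hk₂⟩ := facts l₂
      rw [Finset.mem_union, not_or] at hl₂
      have s₂ : ∑ z ∈ O l₀ ∪ O l₁ ∪ O l₂, c z = C l₀ + C l₁ + C l₂ := by
        rw [Finset.sum_union (Finset.disjoint_union_left.2 ⟨disj hl₂.1, disj hl₂.2⟩), s₁]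
      have t₂ := bnd (O l₀ ∪ O l₁ ∪ O l₂)
      rw [s₂] at t₂
      rcases hk₂ with ⟨-, -, a', b', -, -⟩ | ⟨-, -, a', b', -, -⟩ <;> omega
    rw [s₁] at hstop
    have hn12 : n₁ = 2 := by
      by_contra hne
      have := b3 (by omega)
      omega
    have := b2 hn12
    exact ⟨Or.inl (by omega), by omega, Or.inr ⟨rfl, hs₀⟩⟩
  · have b₀' := b₀ h3
    obtain ⟨l₁, hl₁⟩ := pick (O l₀) (by show C l₀ + 1 < N; omega)
    obtain ⟨n₁, m₁, hn₁, hn₁2, hm₁, hk₁⟩ := facts l₁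
    have s₁ : ∑ z ∈ O l₀ ∪ O l₁, c z = C l₀ + C l₁ := Finset.sum_union (disj hl₁)
    have t₁ := bnd (O l₀ ∪ O l₁)
    rw [s₁] at t₁
    obtain ⟨-, e₁, a₁, c₁, d₁, f₁⟩ : Nat.card (stabilizer H l₁) = 2 * n₁ ∧ m₁ * (2 * n₁) = N ∧
        2 * (C l₁ + m₁) = N ∧ 4 * m₁ ≤ N ∧ (n₁ = 2 → 4 * m₁ = N) ∧ (3 ≤ n₁ → 6 * m₁ ≤ N) := by
      refine hk₁.resolve_left ?_
      rintro ⟨-, -, a, b, b2, b3⟩
      rcases (show n₁ = 2 ∨ 3 ≤ n₁ by omega) with h2 | h2
      · have := b2 h2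
        obtain ⟨l₂, hl₂⟩ := pick (O l₀ ∪ O l₁) (by rw [s₁]; omega)
        obtain ⟨n₂, m₂, -, -, -, hk₂⟩ := facts l₂
        rw [Finset.mem_union, not_or] at hl₂
        have s₂ : ∑ z ∈ O l₀ ∪ O l₁ ∪ O l₂, c z = C l₀ + C l₁ + C l₂ := by
          rw [Finset.sum_union (Finset.disjoint_union_left.2 ⟨disj hl₂.1, disj hl₂.2⟩), s₁]
        have t₂ := bnd (O l₀ ∪ O l₁ ∪ O l₂)
        rw [s₂] at t₂
        rcases hk₂ with ⟨-, -, a', b', -, -⟩ | ⟨-, -, a', b', -, -⟩ <;> omega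
      · have := b3 h2
        omega
    obtain ⟨l₂, hl₂⟩ := pick (O l₀ ∪ O l₁) (by rw [s₁]; omega)
    obtain ⟨n₂, m₂, hn₂, hn₂2, hm₂, hk₂⟩ := facts l₂
    rw [Finset.mem_union, not_or] at hl₂
    have s₂ : ∑ z ∈ O l₀ ∪ O l₁ ∪ O l₂, c z = C l₀ + C l₁ + C l₂ := by
      rw [Finset.sum_union (Finset.disjoint_union_left.2 ⟨disj hl₂.1, disj hl₂.2⟩), s₁]
    have t₂ := bnd (O l₀ ∪ O l₁ ∪ O l₂)
    rw [s₂] at t₂
    obtain ⟨-, e₂, a₂, c₂, d₂, f₂⟩ : Nat.card (stabilizer H l₂) = 2 * n₂ ∧ m₂ * (2 * n₂) = N ∧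
        2 * (C l₂ + m₂) = N ∧ 4 * m₂ ≤ N ∧ (n₂ = 2 → 4 * m₂ = N) ∧ (3 ≤ n₂ → 6 * m₂ ≤ N) := by
      refine hk₂.resolve_left ?_
      rintro ⟨-, -, a, b, -, -⟩
      omega
    have hstop : C l₀ + C l₁ + C l₂ + 1 = N := by
      by_contra hne
      obtain ⟨l₃, hl₃⟩ := pick (O l₀ ∪ O l₁ ∪ O l₂) (by rw [s₂]; omega)
      obtain ⟨n₃, m₃, -, -, -, hk₃⟩ := facts l₃
      simp only [Finset.mem_union, not_or] at hl₃
      have s₃ : ∑ z ∈ O l₀ ∪ O l₁ ∪ O l₂ ∪ O l₃, c z = C l₀ + C l₁ + C l₂ + C l₃ := by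
        rw [Finset.sum_union (Finset.disjoint_union_left.2
          ⟨Finset.disjoint_union_left.2 ⟨disj hl₃.1.1, disj hl₃.1.2⟩, disj hl₃.2⟩), s₂]
      have t₃ := bnd (O l₀ ∪ O l₁ ∪ O l₂ ∪ O l₃)
      rw [s₃] at t₃
      rcases hk₃ with ⟨-, -, a', b', -, -⟩ | ⟨-, -, a', b', -, -⟩ <;> omega
    have key : m₀ + m₁ + m₂ = N / 2 + 1 := by omega
    -- one of the two other poles has order two, the orders are small
    have aux : ∀ n m n' m' : ℕ, m' * (2 * n') = N → (n = 2 → 4 * m = N) → 2 ≤ n' → 4 * m' ≤ N →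
        (3 ≤ n' → 6 * m' ≤ N) → (n' = 2 → 4 * m' = N) → n = 2 → m₀ + m + m' = N / 2 + 1 →
        (N = 12 ∨ N = 24 ∨ N = 60) ∧ n₀ ≤ 5 := by
      intro n m n' m' e' d hn' hb hf hd' hn hkey
      have h4 := d hn
      have hn'3 : 3 ≤ n' := by
        rcases (show n' = 2 ∨ 3 ≤ n' by omega) with h | h
        · have := hd' h; omega
        · exact h
      have h6 := hf hn'3
      have hn05 : n₀ ≤ 5 := by
        by_contra hlt
        have : m₀ * 12 ≤ N := e₀ ▸ Nat.mul_le_mul_left _ (by omega)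
        omega
      have hn'5 : n' ≤ 5 := by
        by_contra hlt
        have : m' * 12 ≤ N := e' ▸ Nat.mul_le_mul_left _ (by omega)
        omega
      refine ⟨?_, hn05⟩
      interval_cases n₀ <;> interval_cases n' <;> omega
    have hres : (N = 12 ∨ N = 24 ∨ N = 60) ∧ n₀ ≤ 5 := by
      rcases (show n₁ = 2 ∨ n₂ = 2 ∨ (3 ≤ n₁ ∧ 3 ≤ n₂) by omega) with h | h | ⟨h, h'⟩
      · exact aux n₁ m₁ n₂ m₂ e₂ d₁ hn₂2 c₂ f₂ d₂ h key
      · exact aux n₂ m₂ n₁ m₁ e₁ d₂ hn₁2 c₁ f₁ d₁ h (by omega)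
      · have := f₁ h
        have := f₂ h'
        omega
    exact ⟨hres.1, hres.2, Or.inl hs₀⟩

end CfsgLib.PrimeTI
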