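import Cfsg.Prelude.Def_Characters
import Cfsg.Agent.Lib.PermGroups.PrimeDegreeSylow
import Cfsg.Agent.Lib.BGAppendix.Basic
import Cfsg.Agent.Lib.CharTheory.Degree

/-!
# Transitive groups of prime degree with a TI complement in the Sylow normalizer

The hypotheses of S4724 and their immediate consequences.
-/

set_option autoImplicit false
set_option linter.unusedSectionVars false
set_option linter.style.haveILetI false

namespace CfsgLib.PrimeTI

open Cfsg MulAction

variable (G α : Type*) [Group G] [Fintype G] [MulAction G α] [FaithfulSMul G α]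
  [IsPretransitive G α] (p : ℕ) [Fact p.Prime]

/-- A transitive group of prime degree `p` with exactly one irreducible character of degree `p`,
whose Sylow normalizer has a complement `E` which is TI with normalizer of order `2|E|`. -/
structure Hyp where
  card : Nat.card α = p
  P : Sylow p G
  E : Subgroup G
  sup_eq : (P : Subgroup G) ⊔ E = Subgroup.normalizer ((P : Subgroup G) : Set G)
  inf_eq : (P : Subgroup G) ⊓ E = ⊥
  card_norm : Nat.card (Subgroup.normalizer (E : Set G)) = 2 * Nat.card E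
  ti : ∀ g : G, g ∉ Subgroup.normalizer (E : Set G) → E ⊓ E.map (MulAut.conj g).toMonoidHom = ⊥
  St : IrrCharacter G
  St_one : (St : G → ℂ) 1 = p
  St_unique : ∀ χ : IrrCharacter G, (χ : G → ℂ) 1 = p → χ = St

variable {G α p} (h : Hyp G α p)

namespace Hyp

include h

theorem finite : Finite α :=
  Nat.finite_of_card_ne_zero (by rw [h.card]; exact (Fact.out : p.Prime).ne_zero)

theorem card_P : Nat.card (h.P : Subgroup G) = p :=
  CfsgLib.PermGroups.natCard_sylow_prime_degree (α := α) h.card h.P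

theorem centralizer_P : Subgroup.centralizer ((h.P : Subgroup G) : Set G) = (h.P : Subgroup G) :=
  CfsgLib.PermGroups.centralizer_sylow_prime_degree (α := α) h.card h.P

theorem E_le : h.E ≤ Subgroup.normalizer ((h.P : Subgroup G) : Set G) :=
  h.sup_eq ▸ le_sup_right

theorem card_N : Nat.card (Subgroup.normalizer ((h.P : Subgroup G) : Set G)) = p * Nat.card h.E := by
  rw [← h.sup_eq, sup_comm, CfsgLib.BGAppendix.card_sup_eq_mul _ _ h.E_le
    (by rw [inf_comm, h.inf_eq]), h.card_P, mul_comm]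

theorem card_E_dvd : Nat.card h.E ∣ p - 1 := by
  obtain ⟨d, hd, hc⟩ :=
    CfsgLib.PermGroups.exists_card_normalizer_prime_degree (α := α) h.card h.P
  rw [h.card_N] at hc
  rwa [Nat.eq_of_mul_eq_mul_left (Fact.out : p.Prime).pos hc]

/-- The complement is nontrivial. -/
theorem two_le_card_E : 2 ≤ Nat.card h.E := by
  have hp : p.Prime := Fact.out
  by_contra hlt
  have h1 : Nat.card h.E = 1 := le_antisymm (by omega) Nat.card_pos
  have hE : h.E = ⊥ := Subgroup.card_eq_one.1 h1
  have hn : Subgroup.normalizer (h.E : Set G) = ⊤ := by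
    rw [hE]
    exact Subgroup.normalizer_eq_top_iff.2 inferInstance
  have h2 := h.card_norm
  rw [hn, Subgroup.card_top, h1] at h2
  have h3 : p ∣ 2 := by
    rw [show (2 : ℕ) = Nat.card G by omega]
    exact CfsgLib.PermGroups.prime_degree_dvd_card (α := α) h.card
  have hp2 : p = 2 := le_antisymm (Nat.le_of_dvd two_pos h3) hp.two_le
  classical
  letI : Fintype (IrrCharacter G) := Fintype.ofFinite _
  have h4 := CharTheory.sum_degree_sq (G := G)
  have h5 : ((h.St : G → ℂ) 1) ^ 2 = 4 := by rw [h.St_one, hp2]; norm_num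
  rw [show Nat.card G = 2 by omega] at h4
  have hne : CharTheory.trivIrr G ≠ h.St := fun hh => by
    have := congrArg (fun χ : IrrCharacter G => (χ : G → ℂ) 1) hh
    simp only [CharTheory.trivIrr_apply, h.St_one, hp2] at this
    norm_num at this
  have h6 : ∀ χ : IrrCharacter G, ∃ m : ℕ, (χ : G → ℂ) 1 = m := fun χ =>
    CharTheory.exists_degree_of_isCharacter (CharTheory.IsIrrCharacter.isCharacter χ.2)
  choose m hm using h6
  have h7 : ∑ χ : IrrCharacter G, ((m χ : ℕ) ^ 2) = 2 := by
    have : ((∑ χ : IrrCharacter G, ((m χ : ℕ) ^ 2) : ℕ) : ℂ) = ((2 : ℕ) : ℂ) := by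
      rw [← h4]
      push_cast
      exact Finset.sum_congr rfl fun χ _ => by rw [hm χ]
    exact_mod_cast this
  have h8 : m h.St ^ 2 ≤ 2 := (Finset.single_le_sum (f := fun χ => m χ ^ 2)
    (fun χ _ => Nat.zero_le _) (Finset.mem_univ h.St)).trans h7.le
  have h9 : m h.St = 2 := by
    have := (hm h.St).symm.trans h.St_one
    have h10 : m h.St = p := by exact_mod_cast this
    omega
  rw [h9] at h8
  omega

theorem three_le : 3 ≤ p := by
  have h1 := h.card_E_dvd
  have h2 := h.two_le_card_E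
  by_contra hlt
  have hp2 : p = 2 := le_antisymm (by omega) (Fact.out : p.Prime).two_le
  rw [show p - 1 = 1 by omega] at h1
  have := Nat.le_of_dvd one_pos h1
  omega

theorem exists_gen : ∃ v : G, orderOf v = p ∧ Subgroup.zpowers v = (h.P : Subgroup G) := by
  obtain ⟨⟨v, hv⟩, hv'⟩ :=
    exists_prime_orderOf_dvd_card' (G := (h.P : Subgroup G)) p h.card_P.symm.dvd
  have ho : orderOf v = p := by rw [← Subgroup.orderOf_mk v hv]; exact hv'
  exact ⟨v, ho, Subgroup.eq_of_le_of_card_ge (Subgroup.zpowers_le.2 hv)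
    (by rw [h.card_P, Nat.card_zpowers, ho])⟩

end Hyp

/-- A generator of the Sylow subgroup. -/
noncomputable def Hyp.v : G := h.exists_gen.choose

namespace Hyp

theorem orderOf_v : orderOf h.v = p := h.exists_gen.choose_spec.1

theorem zpowers_v : Subgroup.zpowers h.v = (h.P : Subgroup G) := h.exists_gen.choose_spec.2

theorem v_mem : h.v ∈ (h.P : Subgroup G) := h.zpowers_v ▸ Subgroup.mem_zpowers _

theorem v_ne_one : h.v ≠ 1 := fun h1 => by
  have := h.orderOf_v
  rw [h1, orderOf_one] at this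
  exact (Fact.out : p.Prime).one_lt.ne this

/-- Powers of `v` indexed by `ZMod p`. -/
noncomputable def vp (j : ZMod p) : G := h.v ^ j.val

theorem pow_eq_vp (n : ℕ) : h.v ^ n = h.vp n := by
  have := pow_mod_orderOf h.v n
  rw [h.orderOf_v] at this
  rw [vp, ZMod.val_natCast, this]

theorem vp_zero : h.vp 0 = 1 := by simp [vp]

theorem vp_one : h.vp 1 = h.v := by rw [← Nat.cast_one, ← h.pow_eq_vp, pow_one]

theorem vp_add (i j : ZMod p) : h.vp (i + j) = h.vp i * h.vp j := by
  conv_lhs => rw [← ZMod.natCast_zmod_val i, ← ZMod.natCast_zmod_val j, ← Nat.cast_add,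
    ← h.pow_eq_vp, pow_add]
  rfl

theorem vp_injective : Function.Injective h.vp := fun i j hij => ZMod.val_injective p
  (pow_injOn_Iio_orderOf (x := h.v) (by rw [h.orderOf_v]; exact ZMod.val_lt i)
    (by rw [h.orderOf_v]; exact ZMod.val_lt j) hij)

theorem vp_mul (i j : ZMod p) : h.vp i ^ j.val = h.vp (i * j) := by
  rw [vp, ← pow_mul, h.pow_eq_vp, Nat.cast_mul, ZMod.natCast_zmod_val, ZMod.natCast_zmod_val]

theorem mem_P_iff {g : G} : g ∈ (h.P : Subgroup G) ↔ ∃ j, h.vp j = g := by
  refine ⟨fun hg => ?_, fun ⟨j, hj⟩ => hj ▸ pow_mem h.v_mem _⟩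
  rw [← h.zpowers_v] at hg
  obtain ⟨k, rfl⟩ := (IsOfFinOrder.mem_powers_iff_mem_zpowers (isOfFinOrder_of_finite h.v)).2 hg
  exact ⟨k, (h.pow_eq_vp k).symm⟩

theorem exists_exp (y : h.E) : ∃ m : ZMod p, (y : G) * h.v * (y : G)⁻¹ = h.vp m := by
  obtain ⟨j, hj⟩ := h.mem_P_iff.1 ((Subgroup.mem_normalizer_iff.1 (h.E_le y.2) h.v).1 h.v_mem)
  exact ⟨j, hj.symm⟩

/-- The exponent by which an element of `E` acts on `P`. -/
noncomputable def n (y : h.E) : ZMod p := (h.exists_exp y).choose

theorem conj_v (y : h.E) : (y : G) * h.v * (y : G)⁻¹ = h.vp (h.n y) := (h.exists_exp y).choose_spec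

theorem conj_vp (y : h.E) (j : ZMod p) : (y : G) * h.vp j * (y : G)⁻¹ = h.vp (h.n y * j) := by
  rw [vp, ← conj_pow, h.conj_v, h.vp_mul]

theorem n_mul (y z : h.E) : h.n (y * z) = h.n y * h.n z := by
  apply h.vp_injective
  rw [← h.conj_vp y (h.n z), ← h.conj_v z, ← h.conj_v (y * z), Subgroup.coe_mul]
  group

theorem n_one : h.n 1 = 1 := by
  apply h.vp_injective
  rw [← h.conj_v, h.vp_one]
  simp

theorem eq_one_of_n_eq_one {y : h.E} (hy : h.n y = 1) : y = 1 := by
  have hy' : (y : G) * h.v * (y : G)⁻¹ = h.v := by rw [h.conj_v, hy, h.vp_one]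
  have hmem : (y : G) ∈ (h.P : Subgroup G) := by
    rw [← h.centralizer_P]
    intro x hx
    rw [← h.zpowers_v] at hx
    obtain ⟨k, rfl⟩ := hx
    exact (Commute.zpow_right (mul_inv_eq_iff_eq_mul.1 hy' : Commute (y : G) h.v) k).eq.symm
  have : (y : G) ∈ (h.P : Subgroup G) ⊓ h.E := ⟨hmem, y.2⟩
  rw [h.inf_eq, Subgroup.mem_bot] at this
  exact Subtype.ext this

/-- The action of `E` on `P` as a homomorphism. -/
noncomputable def nHom : h.E →* ZMod p where
  toFun := h.n
  map_one' := h.n_one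
  map_mul' := h.n_mul

theorem nHom_apply (y : h.E) : h.nHom y = h.n y := rfl

theorem n_injective : Function.Injective h.n := fun y z hyz => by
  have h1 : h.n (z⁻¹ * y) = 1 := by rw [h.n_mul, hyz, ← h.n_mul, inv_mul_cancel, h.n_one]
  exact (inv_mul_eq_one.1 (h.eq_one_of_n_eq_one h1)).symm

theorem E_comm (y z : h.E) : Commute y z := h.n_injective (by rw [h.n_mul, h.n_mul, mul_comm])

theorem isCyclic_E : IsCyclic h.E :=
  isCyclic_of_subgroup_isDomain h.nHom h.n_injective

/-- Translation coordinates about a base point. -/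
noncomputable def pt (b : α) (j : ZMod p) : α := h.vp j • b

theorem pt_zero (b : α) : h.pt b 0 = b := by rw [pt, h.vp_zero, one_smul]

theorem pt_bijective (b : α) : Function.Bijective (h.pt b) := by
  haveI := h.finite
  obtain ⟨e, he0, -, hen⟩ := CfsgLib.PermGroups.exists_coord h.card h.orderOf_v b
  have : h.pt b = e := funext fun j => by
    rw [pt, vp, hen, ZMod.natCast_zmod_val]
  rw [this]
  exact e.bijective

theorem exists_fixed : ∃ b : α, ∀ y : h.E, (y : G) • b = b := by
  haveI := h.isCyclic_E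
  haveI := h.finite
  haveI : Nonempty α := Nat.card_pos_iff.1 (by rw [h.card]; exact (Fact.out : p.Prime).pos) |>.1
  obtain ⟨x, hx⟩ := IsCyclic.exists_generator (α := h.E)
  obtain ⟨b₀⟩ : Nonempty α := inferInstance
  have hn1 : h.n x ≠ 1 := fun h1 => by
    have hbot : h.E = ⊥ := by
      rw [Subgroup.eq_bot_iff_forall]
      intro y hy
      obtain ⟨k, hk⟩ := hx ⟨y, hy⟩
      have := congrArg Subtype.val hk
      simp only [h.eq_one_of_n_eq_one h1, one_zpow, Subgroup.coe_one] at this
      exact this.symm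
    have := h.two_le_card_E
    rw [hbot, Subgroup.card_bot] at this
    omega
  obtain ⟨c, hc⟩ := (h.pt_bijective b₀).2 ((x : G) • b₀)
  set j := c / (1 - h.n x)
  refine ⟨h.pt b₀ j, fun y => ?_⟩
  have hfix : (x : G) • h.pt b₀ j = h.pt b₀ j := by
    calc (x : G) • h.pt b₀ j = ((x : G) * h.vp j * (x : G)⁻¹) • ((x : G) • b₀) := by
          rw [pt, ← mul_smul, ← mul_smul, inv_mul_cancel_right]
      _ = h.vp (h.n x * j) • h.pt b₀ c := by rw [h.conj_vp, hc]
      _ = h.pt b₀ j := by
          rw [pt, ← mul_smul, ← h.vp_add, pt]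
          congr 2
          have : (1 - h.n x) ≠ 0 := sub_ne_zero.2 (Ne.symm hn1)
          simp only [j]
          field_simp
          ring
  obtain ⟨k, rfl⟩ := hx y
  rw [SubgroupClass.coe_zpow]
  exact MulAction.mem_stabilizer_iff.1
    ((MulAction.stabilizer G (h.pt b₀ j)).zpow_mem (MulAction.mem_stabilizer_iff.2 hfix) k)

/-- The point fixed by `E`. -/
noncomputable def a : α := h.exists_fixed.choose

theorem smul_a (y : h.E) : (y : G) • h.a = h.a := h.exists_fixed.choose_spec y

theorem smul_pt (y : h.E) (j : ZMod p) : (y : G) • h.pt h.a j = h.pt h.a (h.n y * j) := by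
  have : (y : G) • h.pt h.a j = ((y : G) * h.vp j * (y : G)⁻¹) • ((y : G) • h.a) := by
    rw [pt, ← mul_smul, ← mul_smul, inv_mul_cancel_right]
  rw [this, h.conj_vp, h.smul_a]
  rfl

theorem fixed_eq {y : h.E} (hy : y ≠ 1) {b : α} (hb : (y : G) • b = b) : b = h.a := by
  obtain ⟨j, rfl⟩ := (h.pt_bijective h.a).2 b
  rw [h.smul_pt] at hb
  have h1 := (h.pt_bijective h.a).1 hb
  have h2 : (h.n y - 1) * j = 0 := by rw [sub_mul, h1, one_mul, sub_self]
  rcases mul_eq_zero.1 h2 with h3 | h3
  · exact absurd (h.eq_one_of_n_eq_one (sub_eq_zero.1 h3)) hy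
  · rw [h3, h.pt_zero]

theorem exists_ne_one : ∃ y : h.E, y ≠ 1 := by
  have : 1 < Nat.card h.E := h.two_le_card_E
  haveI : Nontrivial h.E := Finite.one_lt_card_iff_nontrivial.1 this
  exact exists_ne 1

theorem smul_a_of_mem_normalizer {g : G} (hg : g ∈ Subgroup.normalizer (h.E : Set G)) :
    g • h.a = h.a := by
  obtain ⟨y, hy⟩ := h.exists_ne_one
  refine h.fixed_eq hy ?_
  have hz : g⁻¹ * (y : G) * g ∈ h.E := (Subgroup.mem_normalizer_iff''.1 hg y).1 y.2
  have := h.smul_a ⟨_, hz⟩
  rw [mul_smul, mul_smul, inv_smul_eq_iff] at this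
  exact this

/-- Only elements of the normalizer conjugate a nontrivial element of `E` into `E`. -/
theorem mem_normalizer_of_conj {g : G} {y : G} (hy : y ∈ h.E) (hy1 : y ≠ 1)
    (hg : g⁻¹ * y * g ∈ h.E) : g ∈ Subgroup.normalizer (h.E : Set G) := by
  by_contra hn
  have h1 := h.ti g hn
  have h2 : y ∈ h.E ⊓ h.E.map (MulAut.conj g).toMonoidHom :=
    ⟨hy, ⟨_, hg, by simp [mul_assoc]⟩⟩
  rw [h1, Subgroup.mem_bot] at h2
  exact hy1 h2

theorem relIndex_normalizer : h.E.relIndex (Subgroup.normalizer (h.E : Set G)) = 2 := by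
  have h1 := (h.E.subgroupOf (Subgroup.normalizer (h.E : Set G))).card_mul_index
  rw [Nat.card_congr (Subgroup.subgroupOfEquivOfLe Subgroup.le_normalizer).toEquiv, h.card_norm,
    mul_comm 2] at h1
  exact Nat.eq_of_mul_eq_mul_left Nat.card_pos h1

theorem exists_flip : ∃ a : G, a ∈ Subgroup.normalizer (h.E : Set G) ∧ a ∉ h.E := by
  by_contra! hcon
  have : Nat.card (Subgroup.normalizer (h.E : Set G)) ≤ Nat.card h.E :=
    Nat.le_of_dvd Nat.card_pos (Subgroup.card_dvd_of_le hcon)
  rw [h.card_norm] at this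
  have := Nat.card_pos (α := h.E)
  omega

/-- An element of `N(E)` outside `E`. -/
noncomputable def flip : G := h.exists_flip.choose

theorem flip_mem : h.flip ∈ Subgroup.normalizer (h.E : Set G) := h.exists_flip.choose_spec.1

theorem flip_notMem : h.flip ∉ h.E := h.exists_flip.choose_spec.2

theorem mem_normalizer_cases {g : G} (hg : g ∈ Subgroup.normalizer (h.E : Set G)) :
    g ∈ h.E ∨ g * h.flip⁻¹ ∈ h.E := by
  by_cases hgE : g ∈ h.E
  · exact Or.inl hgE
  refine Or.inr ?_
  have h1 := (Subgroup.mul_mem_iff_of_index_two h.relIndex_normalizer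
    (a := (⟨g, hg⟩ : Subgroup.normalizer (h.E : Set G))) (b := ⟨h.flip⁻¹, inv_mem h.flip_mem⟩)).2
    (iff_of_false (by rw [Subgroup.mem_subgroupOf]; exact hgE)
      (by rw [Subgroup.mem_subgroupOf]; exact fun hh => h.flip_notMem ((inv_mem_iff).1 hh)))
  rwa [Subgroup.mem_subgroupOf] at h1

end Hyp

end CfsgLib.PrimeTI
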