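import Cfsg.Agent.Lib.PrimeTI.Modular
import Mathlib.LinearAlgebra.Matrix.Charpoly.Coeff
import Mathlib.GroupTheory.Perm.Cycle.Type

/-!
# The three-dimensional representation
-/

set_option autoImplicit false
set_option linter.unusedSectionVars false
set_option linter.style.haveILetI false
set_option maxHeartbeats 800000

namespace CfsgLib.PrimeTI

open Cfsg MulAction CfsgLib.CharTheory

variable {G α : Type*} [Group G] [Fintype G] [MulAction G α] [FaithfulSMul G α]
  [IsPretransitive G α] {p : ℕ} [Fact p.Prime] (h : Hyp G α p)

/-- A perfect group has trivial determinants. -/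
theorem det_eq_one_of_perfect {G : Type*} [Group G] (hG : commutator G = ⊤) {k : Type*} [Field k]
    {m : ℕ} (τ : G →* Matrix (Fin m) (Fin m) k) (g : G) : (τ g).det = 1 := by
  let d : G →* kˣ := ((Matrix.detMonoidHom).comp τ).toHomUnits
  have hg : g ∈ d.ker :=
    Abelianization.commutator_subset_ker _ (by rw [hG]; exact Subgroup.mem_top g)
  have := congrArg Units.val (MonoidHom.mem_ker.1 hg)
  simpa [d] using this

/-- The trace of a permutation on functions is its number of fixed points. -/
theorem trace_permRep {k : Type*} [Field k] {G β : Type*} [Group G] [Fintype β] [MulAction G β]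
    (g : G) : LinearMap.trace k (β → k) (Cfsg.permRep k G β g) = (Nat.card (fixedBy β g) : k) := by
  classical
  rw [LinearMap.trace_eq_matrix_trace k (Pi.basisFun k β), Matrix.trace, Nat.card_eq_fintype_card]
  have hd : ∀ b, (LinearMap.toMatrix (Pi.basisFun k β) (Pi.basisFun k β) (Cfsg.permRep k G β g)).diag b
      = if g • b = b then 1 else 0 := by
    intro b
    rw [Matrix.diag_apply, LinearMap.toMatrix_apply, Pi.basisFun_repr, Pi.basisFun_apply,
      CfsgLib.PermGroups.permRep_single, Pi.single_apply]
    exact if_congr eq_comm rfl rfl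
  rw [Finset.sum_congr rfl fun b _ => hd b, Finset.sum_boole]
  congr 1
  rw [Fintype.card_of_subtype]
  intro x
  simp [MulAction.mem_fixedBy]

namespace Hyp

include h

/-- The main construction: a faithful three-dimensional representation in characteristic `p`. -/
theorem exists_three [Fintype α] (hE : 3 ≤ Nat.card h.E) (ht : Nat.card h.E ≠ p - 1) :
    ∃ (O : ValuationSubring ℂ) (_ : CharP (IsLocalRing.ResidueField O) p) (l : h.E →* ℂˣ)
      (τ : G →* Matrix (Fin 3) (Fin 3) (IsLocalRing.ResidueField O)),
      (l ≠ 1 ∧ l * l ≠ 1) ∧ Function.Injective τ ∧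
      ∀ g : G, ∃ x : O, (x : ℂ) = 1 + (h.St : G → ℂ) g + h.al l g ∧
        (τ g).trace = IsLocalRing.residue O x - ((Nat.card (fixedBy α g) : IsLocalRing.ResidueField O) - 2) := by
  classical
  haveI := Fintype.ofFinite h.E
  have hp : p.Prime := Fact.out
  have hα : Fintype.card α = p := Nat.card_eq_fintype_card.symm.trans h.card
  obtain ⟨O, hO⟩ := CfsgLib.BrauerCharacters.Reduction.exists_valuationSubring hp
  haveI hch : CharP (IsLocalRing.ResidueField O) p := charP_residue hO
  set k := IsLocalRing.ResidueField O
  obtain ⟨l, hl⟩ := h.exists_lift O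
  choose z hz hz' using hl
  -- nontriviality of the lift
  have hnk : ∀ y : h.E, l y = 1 → y = 1 := fun y hy => by
    apply h.nk_injective (k := k)
    rw [map_one, ← hz']
    rw [show z y = 1 from Subtype.ext (by rw [hz, hy]; rfl), map_one]
  obtain ⟨y₀, hy₀⟩ := h.exists_ne_one
  have hl1 : l ≠ 1 := fun e => hy₀ (hnk y₀ (by rw [e]; rfl))
  have hl2 : l * l ≠ 1 := fun e => by
    haveI := h.isCyclic_E
    obtain ⟨x, hx⟩ := IsCyclic.exists_generator (α := h.E)
    have h3 : x ^ 2 = 1 := hnk _ (by
      rw [map_pow, pow_two, ← MonoidHom.mul_apply, e, MonoidHom.one_apply])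
    have h4 : orderOf x = Nat.card h.E := orderOf_eq_card_of_forall_mem_zpowers hx
    have := Nat.le_of_dvd two_pos (orderOf_dvd_of_pow_eq_one h3)
    omega
  set X : G → ℂ := fun g => 1 + (h.St : G → ℂ) g + h.al l g with hX
  have hXirr : IsIrrCharacter G X := h.exists_principal_series hl1 hl2
  have hXinv : ∀ g, X g⁻¹ = X g := fun g => by
    rw [IsIrrCharacter.inv hXirr]
    simp [X, h.St_real, h.conj_al]
  obtain ⟨d, ρ0, -, hρ0⟩ := hXirr
  obtain ⟨b, hb⟩ := CfsgLib.BrauerCharacters.Reduction.exists_stable_basis ρ0 O
  have hd : d = p + 1 := by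
    have h1 : ρ0.character 1 = X 1 := congrFun hρ0 1
    rw [Representation.char_one, Module.finrank_fin_fun] at h1
    simp only [X, h.St_one, h.al_one] at h1
    have h2 : (d : ℂ) = ((p + 1 : ℕ) : ℂ) := by rw [h1]; push_cast; ring
    exact_mod_cast h2
  -- the representation over the valuation ring and its reduction
  let A : G → Matrix (Fin d) (Fin d) O := fun g => Matrix.of fun i j => ⟨b.repr (ρ0 g (b j)) i, hb g i j⟩
  have hA : ∀ g, (A g).map O.subtype = LinearMap.toMatrix b b (ρ0 g) := fun g => by
    ext i j; simp [A, LinearMap.toMatrix_apply]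
  have hinjO : Function.Injective fun M : Matrix (Fin d) (Fin d) O => M.map O.subtype :=
    Matrix.map_injective Subtype.val_injective
  let Ah : G →* Matrix (Fin d) (Fin d) O :=
    { toFun := A
      map_one' := hinjO (by
        simp only [hA, map_one]
        rw [Matrix.map_one _ (map_zero _) (map_one _), LinearMap.toMatrix_one])
      map_mul' := fun g g' => hinjO (by
        simp only [hA, map_mul, Matrix.map_mul, LinearMap.toMatrix_mul]) }
  let ρk : Representation k G (Fin d → k) :=
    (Matrix.toLinAlgEquiv' (R := k) (n := Fin d)).toMonoidHom.comp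
      (((IsLocalRing.residue O).mapMatrix : Matrix (Fin d) (Fin d) O →+* Matrix (Fin d) (Fin d) k).toMonoidHom.comp Ah)
  have hxmem : ∀ g, ((A g).trace : ℂ) = X g := fun g => by
    rw [← congrFun hρ0 g, Representation.character, LinearMap.trace_eq_matrix_trace ℂ b, ← hA]
    simp [Matrix.trace, map_sum]
  have htrk : ∀ g, LinearMap.trace k _ (ρk g) = IsLocalRing.residue O (A g).trace := fun g => by
    show LinearMap.trace k _ (Matrix.toLin' ((A g).map (IsLocalRing.residue O))) = _
    rw [Matrix.trace_toLin'_eq]
    simp [Matrix.trace, map_sum]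
  -- any representation with these traces and a good vector gives the module
  have main : ∀ {V : Type} [AddCommGroup V] [Module k V] [FiniteDimensional k V]
      (ρ : Representation k G V), Module.finrank k V = p + 1 →
      (∀ g, LinearMap.trace k V (ρ g) = IsLocalRing.residue O (A g).trace) →
      (∃ w, h.IsGood ρ w) →
      ∃ τ : G →* Matrix (Fin 3) (Fin 3) k, Function.Injective τ ∧
        ∀ g, (τ g).trace = IsLocalRing.residue O (A g).trace - ((Nat.card (fixedBy α g) : k) - 2) := by
    intro V _ _ _ ρ hV htr ⟨w, hw⟩
    obtain ⟨f, hf, F₀, hF₀, hF₀'⟩ := h.exists_hom ρ hw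
    set π := Cfsg.permRep k G α
    set U := (Cfsg.permSumZero k G α).toSubmodule with hU
    have hUinv : ∀ g, ∀ v ∈ U, π g v ∈ U := fun g v hv => (Cfsg.permSumZero k G α).apply_mem_toSubmodule g hv
    let σ : U →ₗ[k] V := f.domRestrict U
    let R : Submodule k V := LinearMap.range σ
    let K' : Submodule k (α → k) := LinearMap.ker f ⊓ U
    have hK'inv : ∀ g, ∀ v ∈ K', π g v ∈ K' := fun g v hv => by
      refine ⟨?_, hUinv g v hv.2⟩
      show f (π g v) = 0
      rw [hf g v hv.2, show f v = 0 from hv.1, map_zero]
    have hRinv : ∀ g, R ≤ R.comap (ρ g) := fun g => by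
      rintro _ ⟨u, rfl⟩
      exact ⟨⟨π g u, hUinv g u u.2⟩, hf g u u.2⟩
    have hK'U : K' ≠ U := fun e => hF₀' (by
      have : F₀ ∈ K' := e.symm ▸ hF₀
      exact this.1)
    have hone : (fun _ : α => (1 : k)) ≠ 0 := fun e => by
      obtain ⟨b⟩ : Nonempty α := ⟨h.a⟩
      exact one_ne_zero (congrFun e b)
    have hcK : K' = ⊥ ∨ K' = (Cfsg.permConstants k G α).toSubmodule := by
      by_cases hb' : K' = ⊥
      · exact Or.inl hb'
      · refine Or.inr ((CfsgLib.PermGroups.heart_irreducible_prime_degree hα h.not_isSolvable K'
          hK'inv ?_ inf_le_right).resolve_right hK'U)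
        exact CfsgLib.PermGroups.permConstants_le_of_ne_bot (p := p) (f := 1)
          (by rw [pow_one, h.card]) K' hK'inv hb'
    -- dimension and traces of the sum-zero functions
    let S : (α → k) →ₗ[k] k := ∑ b : α, LinearMap.proj b
    have hS : ∀ F, S F = ∑ b, F b := fun F => by simp [S]
    have hSU : LinearMap.ker S = U := Submodule.ext fun F => by
      rw [LinearMap.mem_ker, hS]; exact CfsgLib.PermGroups.mem_permSumZero.symm
    have hSsurj : Function.Surjective S := fun c => ⟨Pi.single h.a c, by simp [hS]⟩
    have hdimU : Module.finrank k U + 1 = p := by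
      have := LinearMap.finrank_range_add_finrank_ker S
      rw [LinearMap.range_eq_top.2 hSsurj, finrank_top, Module.finrank_self, hSU,
        Module.finrank_pi, hα] at this
      omega
    have htrU : ∀ g, LinearMap.trace k U ((π g).restrict (hUinv g))
        = (Nat.card (fixedBy α g) : k) - 1 := fun g => by
      have h1 := trace_eq_restrict_add_mapQ (π g) U (fun v hv => hUinv g v hv)
      have hq : U.mapQ U (π g) (fun v hv => hUinv g v hv) = LinearMap.id := by
        refine LinearMap.ext fun q => ?_
        induction q using Submodule.Quotient.induction_on with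
        | _ F =>
          show Submodule.Quotient.mk (π g F) = Submodule.Quotient.mk F
          rw [Submodule.Quotient.eq, hU, CfsgLib.PermGroups.mem_permSumZero]
          simp only [Pi.sub_apply, Finset.sum_sub_distrib, sub_eq_zero]
          exact Fintype.sum_equiv (MulAction.toPerm g⁻¹) _ _ fun x => rfl
      have h2 : Module.finrank k ((α → k) ⧸ U) = 1 := by
        have := U.finrank_quotient_add_finrank
        rw [Module.finrank_pi, hα] at this
        omega
      rw [trace_permRep, hq, LinearMap.trace_id, h2, Nat.cast_one] at h1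
      exact eq_sub_of_add_eq h1.symm
    -- the restriction of `f`
    have hker : ∀ u : U, u ∈ LinearMap.ker σ ↔ (u : α → k) ∈ K' := fun u =>
      ⟨fun hu => ⟨hu, u.2⟩, fun hu => hu.1⟩
    have hkinv : ∀ g, LinearMap.ker σ ≤ (LinearMap.ker σ).comap ((π g).restrict (hUinv g)) :=
      fun g u hu => (hker _).2 (hK'inv g u ((hker u).1 hu))
    have htrR : ∀ g, LinearMap.trace k R ((ρ g).restrict fun u hu => hRinv g hu)
        + LinearMap.trace k (LinearMap.ker σ) (((π g).restrict (hUinv g)).restrict fun u hu => hkinv g hu)
        = (Nat.card (fixedBy α g) : k) - 1 := fun g => by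
      rw [← htrU g, trace_eq_restrict_add_mapQ ((π g).restrict (hUinv g)) _ (hkinv g), add_comm]
      congr 1
      rw [← LinearMap.trace_conj' _ σ.quotKerEquivRange]
      congr 1
      refine LinearMap.ext fun r => ?_
      obtain ⟨q, rfl⟩ := σ.quotKerEquivRange.surjective r
      induction q using Submodule.Quotient.induction_on with
      | _ u =>
        rw [LinearEquiv.conj_apply_apply, LinearEquiv.symm_apply_apply]
        exact Subtype.ext (hf g u u.2).symm
    have hdim := LinearMap.finrank_range_add_finrank_ker σ
    change Module.finrank k R + _ = _ at hdim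
    let τ0 : G →* Module.End k (V ⧸ R) :=
      { toFun := fun g => R.mapQ R (ρ g) (hRinv g)
        map_one' := by
          refine LinearMap.ext fun q => ?_
          induction q using Submodule.Quotient.induction_on with
          | _ u => simp
        map_mul' := fun a c => by
          refine LinearMap.ext fun q => ?_
          induction q using Submodule.Quotient.induction_on with
          | _ u => simp }
    have htrW : ∀ g, LinearMap.trace k (V ⧸ R) (τ0 g)
        = IsLocalRing.residue O (A g).trace - LinearMap.trace k R ((ρ g).restrict fun u hu => hRinv g hu) := fun g => by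
      rw [← htr g, trace_eq_restrict_add_mapQ (ρ g) R (hRinv g)]
      simp [τ0]
    have hquot := R.finrank_quotient_add_finrank
    rw [hV] at hquot
    have hres : ∀ y : h.E, y ≠ 1 → IsLocalRing.residue O (A (y : G)).trace
        = h.nk k y + h.nk k y⁻¹ := fun y hy => by
      rw [← hz', ← hz', ← map_add]
      congr 1
      refine Subtype.ext ?_
      push_cast
      rw [hxmem, hz, hz, map_inv, Units.val_inv_eq_inv_val]
      simp only [X, h.St_E hy, h.al_E']
      ring
    haveI := h.isSimpleGroup
    have hinj : ∀ {m : ℕ} (τ : G →* Matrix (Fin m) (Fin m) k), (∃ g, (τ g).trace ≠ (m : k)) →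
        Function.Injective τ := by
      rintro m τ ⟨g, hg⟩
      rw [← MonoidHom.ker_eq_bot_iff]
      refine (IsSimpleGroup.eq_bot_or_eq_top_of_normal τ.ker inferInstance).resolve_right fun e => ?_
      apply hg
      rw [show τ g = 1 from MonoidHom.mem_ker.1 (e ▸ Subgroup.mem_top g), Matrix.trace_one,
        Fintype.card_fin]
    obtain ⟨y, hy⟩ := h.exists_ne_one
    have hny : h.nk k y + h.nk k y⁻¹ ≠ 2 := fun e => by
      have h1 : (h.nk k y - 1) ^ 2 = 0 := by
        linear_combination h.nk k y * e - h.nk_mul_inv (k := k) y
      have h2 := sub_eq_zero.1 (pow_eq_zero_iff two_ne_zero |>.1 h1)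
      exact hy (h.nk_injective (k := k) (h2.trans (map_one _).symm))
    have hfy : Nat.card (fixedBy α (y : G)) = 1 := by
      rw [Nat.card_eq_one_iff_exists]
      exact ⟨⟨h.a, h.smul_a y⟩, fun b => Subtype.ext (h.fixed_eq hy b.2)⟩
    rcases hcK with hK | hK
    · -- injective: a two-dimensional quotient, impossible
      exfalso
      have hkb : LinearMap.ker σ = ⊥ := (Submodule.eq_bot_iff _).2 fun u hu => by
        have := (hker u).1 hu
        rw [hK, Submodule.mem_bot] at this
        exact Subtype.ext this
      have h0 : Module.finrank k (LinearMap.ker σ) = 0 := by rw [hkb, finrank_bot]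
      have hW2 : Module.finrank k (V ⧸ R) = 2 := by omega
      let B := Module.finBasisOfFinrankEq k (V ⧸ R) hW2
      let τ : G →* Matrix (Fin 2) (Fin 2) k :=
        (LinearMap.toMatrixAlgEquiv B).toMonoidHom.comp τ0
      have hτtr : ∀ g, (τ g).trace = IsLocalRing.residue O (A g).trace
          - ((Nat.card (fixedBy α g) : k) - 1) := fun g => by
        have h1 := htrR g
        haveI : Subsingleton (LinearMap.ker σ) := by rw [hkb]; infer_instance
        rw [show LinearMap.trace k (LinearMap.ker σ) _ = 0 from
          (congrArg _ (Subsingleton.elim _ 0)).trans (map_zero _), add_zero] at h1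
        rw [← h1, ← htrW g, LinearMap.trace_eq_matrix_trace k B]
        rfl
      have hτ := hinj τ ⟨(y : G), by
        rw [hτtr, hres y hy, hfy, Nat.cast_one, sub_self, sub_zero]; simpa using hny⟩
      have h2G : 2 ∣ Nat.card G := by
        have := Subgroup.card_subgroup_dvd_card (Subgroup.normalizer (h.E : Set G))
        rw [h.card_norm] at this
        exact (dvd_mul_right 2 _).trans this
      obtain ⟨g, hg⟩ := exists_prime_orderOf_dvd_card' 2 h2G
      have h2k : (2 : k) ≠ 0 := fun e => by
        have h4 : ((2 : ℕ) : k) = 0 := by simpa using e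
        rw [CharP.cast_eq_zero_iff k p] at h4
        have := Nat.le_of_dvd two_pos h4
        have := h.three_le
        omega
      have hgg : τ g * τ g = 1 := by
        have h1 := pow_orderOf_eq_one g
        rw [hg, pow_two] at h1
        rw [← map_mul, h1, map_one]
      have hch' := Matrix.aeval_self_charpoly (τ g)
      rw [Matrix.charpoly_fin_two, det_eq_one_of_perfect h.perfect] at hch'
      simp only [map_add, map_sub, map_mul, map_pow, Polynomial.aeval_X, Polynomial.aeval_C,
        map_one, pow_two, hgg] at hch'
      rw [← Algebra.smul_def] at hch'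
      have hsc : (τ g).trace • τ g = (2 : k) • (1 : Matrix (Fin 2) (Fin 2) k) := by
        rw [two_smul]
        exact (sub_eq_zero.1 (by rw [← hch']; abel)).symm
      have htr0 : (τ g).trace ≠ 0 := fun e => by
        rw [e, zero_smul] at hsc
        rcases smul_eq_zero.1 hsc.symm with h1 | h1
        · exact h2k h1
        · exact one_ne_zero h1
      have hscal : τ g = ((τ g).trace⁻¹ * 2) • (1 : Matrix (Fin 2) (Fin 2) k) := by
        rw [← smul_smul, ← hsc, smul_smul, inv_mul_cancel₀ htr0, one_smul]
      have hcen : g ∈ Subgroup.center G := Subgroup.mem_center_iff.2 fun x => hτ (by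
        rw [map_mul, map_mul, hscal, mul_smul_comm, smul_mul_assoc, mul_one, one_mul])
      rcases IsSimpleGroup.eq_bot_or_eq_top_of_normal (Subgroup.center G) inferInstance with e | e
      · rw [e, Subgroup.mem_bot] at hcen
        rw [hcen, orderOf_one] at hg
        omega
      · obtain ⟨y', hy'⟩ := h.exists_ne_one
        have hcv : (y' : G) * h.v = h.v * (y' : G) :=
          (Subgroup.mem_center_iff.1 (e ▸ Subgroup.mem_top (y' : G)) h.v).symm
        refine hy' (h.eq_one_of_n_eq_one (h.vp_injective ?_))
        rw [← h.conj_v, hcv, mul_inv_cancel_right, h.vp_one]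
    · -- the constants are the kernel
      have hmem1 : (fun _ : α => (1 : k)) ∈ U := by
        refine CfsgLib.PermGroups.mem_permSumZero.2 ?_
        rw [Finset.sum_const, Finset.card_univ, hα, nsmul_one, CharP.cast_eq_zero]
      have hk1 : Module.finrank k (LinearMap.ker σ) = 1 := by
        refine finrank_eq_one (R := k) (M := LinearMap.ker σ) ⟨⟨_, hmem1⟩, (hker _).2 (by
          rw [hK]; exact CfsgLib.PermGroups.mem_permConstants.2 ⟨1, fun _ => rfl⟩)⟩
          (fun e => hone (congrArg (fun u : LinearMap.ker σ => ((u : U) : α → k)) e)) fun u => ?_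
        have hu := (hker u.1).1 u.2
        rw [hK] at hu
        obtain ⟨c, hc⟩ := CfsgLib.PermGroups.mem_permConstants.1 hu
        exact ⟨c, Subtype.ext (Subtype.ext (funext fun x => by simp [hc x]))⟩
      have hW3 : Module.finrank k (V ⧸ R) = 3 := by omega
      let B := Module.finBasisOfFinrankEq k (V ⧸ R) hW3
      let τ : G →* Matrix (Fin 3) (Fin 3) k :=
        (LinearMap.toMatrixAlgEquiv B).toMonoidHom.comp τ0
      have hτtr : ∀ g, (τ g).trace = IsLocalRing.residue O (A g).trace
          - ((Nat.card (fixedBy α g) : k) - 2) := fun g => by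
        have h1 := htrR g
        have hid : (((π g).restrict (hUinv g)).restrict (p := LinearMap.ker σ) (q := LinearMap.ker σ)
            fun u hu => hkinv g hu) = LinearMap.id := by
          refine LinearMap.ext fun u => Subtype.ext (Subtype.ext (funext fun x => ?_))
          have hu := (hker u.1).1 u.2
          rw [hK] at hu
          obtain ⟨c, hc⟩ := CfsgLib.PermGroups.mem_permConstants.1 hu
          show π g ((u : U) : α → k) x = ((u : U) : α → k) x
          rw [CfsgLib.PermGroups.permRep_apply, hc, hc]
        have htid : LinearMap.trace k (LinearMap.ker σ)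
            (LinearMap.id : LinearMap.ker σ →ₗ[k] LinearMap.ker σ) = 1 := by
          haveI : Module.Free k (LinearMap.ker σ) :=
            @Module.Free.of_divisionRing k (LinearMap.ker σ) (Field.toDivisionRing) (Submodule.addCommGroup _) _
          rw [LinearMap.trace_eq_matrix_trace k (Module.finBasisOfFinrankEq k _ hk1),
            LinearMap.toMatrix_id, Matrix.trace_one, Fintype.card_fin, Nat.cast_one]
        erw [hid, htid] at h1
        rw [show ((Nat.card (fixedBy α g) : k) - 2) = (Nat.card (fixedBy α g) : k) - 1 - 1 by ring,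
          ← h1, add_sub_cancel_right, ← htrW g, LinearMap.trace_eq_matrix_trace k B]
        rfl
      refine ⟨τ, hinj τ ⟨(y : G), ?_⟩, hτtr⟩
      rw [hτtr, hres y hy, hfy]
      intro e
      exact hny (by linear_combination e)
  have htE : h.TraceE ρk := fun y => by
    rw [htrk]
    split_ifs with hy
    · subst hy
      have : (A ((1 : h.E) : G)).trace = ((p + 1 : ℕ) : O) := Subtype.ext (by
        rw [hxmem, show (((p + 1 : ℕ) : O) : ℂ) = ((p + 1 : ℕ) : ℂ) from map_natCast O.subtype _]
        simp [X, h.St_one, h.al_one]; ring)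
      rw [this, map_natCast, Nat.cast_succ, CharP.cast_eq_zero, inv_one, map_one]
      ring
    · rw [← hz', ← hz', sub_zero, ← map_add]
      congr 1
      refine Subtype.ext ?_
      push_cast
      rw [hxmem, hz, hz, map_inv, Units.val_inv_eq_inv_val]
      simp only [X, h.St_E hy, h.al_E']
      ring
  have hfin : Module.finrank k (Fin d → k) = p + 1 := by rw [Module.finrank_fin_fun, hd]
  obtain ⟨τ, hτ, hτt⟩ := (h.exists_good ρk hfin htE hE ht).elim (fun hw => main ρk hfin htrk hw)
    (fun hf => main ρk.dual (Subspace.dual_finrank_eq.trans hfin) (fun g => by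
      rw [Representation.dual_apply, LinearMap.trace_transpose', htrk]
      congr 1
      exact Subtype.ext (by rw [hxmem, hxmem, hXinv])) hf)
  exact ⟨O, hch, l, τ, ⟨hl1, hl2⟩, hτ, fun g => ⟨(A g).trace, hxmem g, hτt g⟩⟩

end Hyp

end CfsgLib.PrimeTI
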