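import Cfsg.Agent.Lib.PrimeTI.Chars
import Cfsg.Agent.Lib.BrauerCharacters.ClassMul
import Cfsg.Agent.Lib.Involutions.CharIdem
import Cfsg.Agent.Lib.Clifford.DetChar
import Mathlib.GroupTheory.Perm.Cycle.Basic

/-!
# The cases `|E| = p - 1` and `|E| = 2`
-/

set_option autoImplicit false
set_option linter.unusedSectionVars false
set_option linter.style.haveILetI false
set_option maxHeartbeats 800000

namespace CfsgLib.PrimeTI

open Cfsg MulAction CfsgLib.CharTheory
open scoped ComplexConjugate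

variable {G α : Type*} [Group G] [Fintype G] [MulAction G α] [FaithfulSMul G α]
  [IsPretransitive G α] {p : ℕ} [Fact p.Prime] (h : Hyp G α p)

namespace Hyp

include h

/-- `|E| = p - 1` would give an odd permutation in a perfect group. -/
theorem card_E_ne_pred : Nat.card h.E ≠ p - 1 := by
  classical
  haveI := h.finite
  haveI := Fintype.ofFinite α
  intro hcard
  have hp : p.Prime := Fact.out
  haveI := h.isCyclic_E
  obtain ⟨x, hx⟩ := IsCyclic.exists_generator (α := h.E)
  haveI := Fintype.ofFinite h.E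
  have hsurj : ∀ j : ZMod p, j ≠ 0 → ∃ y : h.E, h.n y = j := by
    intro j hj
    have hne : ∀ y : h.E, h.n y ≠ 0 := fun y h0 => by
      have h1 := h.n_mul y y⁻¹
      rw [mul_inv_cancel, h.n_one, h0, zero_mul] at h1
      exact one_ne_zero h1
    have h2 : Finset.univ.image h.n = Finset.univ.erase (0 : ZMod p) := by
      refine Finset.eq_of_subset_of_card_le (fun i hi => ?_) ?_
      · obtain ⟨y, -, rfl⟩ := Finset.mem_image.1 hi
        exact Finset.mem_erase.2 ⟨hne y, Finset.mem_univ _⟩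
      · rw [Finset.card_erase_of_mem (Finset.mem_univ _), Finset.card_univ, ZMod.card,
          Finset.card_image_of_injective _ h.n_injective, Finset.card_univ,
          ← Nat.card_eq_fintype_card, hcard]
    have h3 : j ∈ Finset.univ.image h.n := h2 ▸ Finset.mem_erase.2 ⟨hj, Finset.mem_univ _⟩
    obtain ⟨y, -, hy⟩ := Finset.mem_image.1 h3
    exact ⟨y, hy⟩
  set σ : Equiv.Perm α := toPermHom G α (x : G) with hσ
  have hx1 : x ≠ 1 := fun e => by
    obtain ⟨y, hy⟩ := h.exists_ne_one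
    obtain ⟨i, rfl⟩ := hx y
    simp [e] at hy
  have hmove : ∀ c, σ c ≠ c ↔ c ≠ h.a := fun c => by
    refine ⟨fun hc e => hc (e ▸ h.smul_a x), fun hc e => hc (h.fixed_eq hx1 e)⟩
  have hb : h.pt h.a 1 ≠ h.a := fun e =>
    one_ne_zero ((h.pt_bijective h.a).1 (e.trans (h.pt_zero h.a).symm))
  have hcyc : σ.IsCycle := by
    refine ⟨h.pt h.a 1, (hmove _).2 hb, fun c hc => ?_⟩
    obtain ⟨j, rfl⟩ := (h.pt_bijective h.a).2 c
    have hj : j ≠ 0 := fun e => (hmove _).1 hc (by rw [e, h.pt_zero])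
    obtain ⟨y, hy⟩ := hsurj j hj
    obtain ⟨i, hi⟩ := hx y
    refine ⟨i, ?_⟩
    rw [hσ, ← map_zpow, toPermHom_apply, MulAction.toPerm_apply, ← SubgroupClass.coe_zpow,
      show x ^ i = y from hi, h.smul_pt, mul_one, hy]
  have hsupp : σ.support = Finset.univ.erase h.a := by
    ext c
    simp [hmove c]
  have hsign := hcyc.sign
  rw [hsupp, Finset.card_erase_of_mem (Finset.mem_univ _), Finset.card_univ,
    ← Nat.card_eq_fintype_card, h.card, (hp.even_sub_one (by have := h.three_le; omega)).neg_one_pow]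
    at hsign
  have h1 : Equiv.Perm.sign σ = 1 :=
    MonoidHom.mem_ker.1 (Abelianization.commutator_subset_ker (Equiv.Perm.sign.comp (toPermHom G α))
      (by rw [h.perfect]; exact Subgroup.mem_top (x : G)))
  rw [h1] at hsign
  exact absurd hsign (by decide)

theorem centralizer_vp {j : ZMod p} (hj : j ≠ 0) :
    Subgroup.centralizer ({h.vp j} : Set G) = (h.P : Subgroup G) := by
  refine le_antisymm (fun g hg => ?_) (fun g hg => ?_)
  · rw [← h.centralizer_P, Subgroup.mem_centralizer_iff]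
    intro u hu
    obtain ⟨i, rfl⟩ := h.mem_P_iff.1 hu
    have : h.vp j ^ (j⁻¹ * i).val = h.vp i := by
      rw [h.vp_mul, ← mul_assoc, mul_inv_cancel₀ hj, one_mul]
    rw [← this]
    exact ((Subgroup.mem_centralizer_singleton_iff.1 hg : g * h.vp j = h.vp j * g) |>
      fun e => (Commute.pow_right e _).eq.symm)
  · rw [Subgroup.mem_centralizer_singleton_iff]
    obtain ⟨i, rfl⟩ := h.mem_P_iff.1 hg
    rw [← h.vp_add, ← h.vp_add, add_comm]

theorem vp_neg (j : ZMod p) : h.vp (-j) = (h.vp j)⁻¹ :=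
  eq_inv_of_mul_eq_one_right (by rw [← h.vp_add, add_neg_cancel, h.vp_zero])

/-- An integer value taken on all nontrivial elements of `P` is small. -/
theorem sq_value_le {χ : IrrCharacter G} {d : ℤ}
    (hd : ∀ j : ZMod p, j ≠ 0 → (χ : G → ℂ) (h.vp j) = d) (hE : Nat.card h.E = 2) :
    ((p : ℤ) - 1) * d ^ 2 ≤ 2 * p := by
  classical
  have hp : p.Prime := Fact.out
  set S : Finset (G × ZMod p) := Finset.univ ×ˢ (Finset.univ.erase (0 : ZMod p)) with hS
  let φ : G × ZMod p → G := fun q => q.1 * h.vp q.2 * q.1⁻¹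
  have hval : ∀ q ∈ S, Complex.normSq ((χ : G → ℂ) (φ q)) = (d : ℝ) ^ 2 := by
    intro q hq
    rw [hS, Finset.mem_product, Finset.mem_erase] at hq
    simp only [φ]
    rw [IsIrrCharacter.isClassFunction χ.2, hd _ hq.2.1, ← Complex.ofReal_intCast,
      Complex.normSq_ofReal, pow_two]
  have hfib : ∀ y : G, (S.filter fun q => φ q = y).card ≤ 2 * p := by
    intro y
    rcases (S.filter fun q => φ q = y).eq_empty_or_nonempty with h0 | ⟨q₀, hq₀⟩
    · rw [h0]; simp
    · rw [Finset.mem_filter, hS, Finset.mem_product, Finset.mem_erase] at hq₀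
      have hle : (S.filter fun q => φ q = y).card ≤
          (Finset.univ.filter fun g : G => g ∈ Subgroup.normalizer ((h.P : Subgroup G) : Set G)).card := by
        refine Finset.card_le_card_of_injOn (fun q => q₀.1⁻¹ * q.1) (fun q hq => ?_) ?_
        · rw [Finset.mem_coe, Finset.mem_filter, hS, Finset.mem_product, Finset.mem_erase] at hq
          refine Finset.mem_filter.2 ⟨Finset.mem_univ _, Subgroup.mem_normalizer_fintype fun u hu => ?_⟩
          obtain ⟨i, rfl⟩ := h.mem_P_iff.1 hu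
          have e : q.1 * h.vp q.2 * q.1⁻¹ = q₀.1 * h.vp q₀.2 * q₀.1⁻¹ := hq.2.trans hq₀.2.symm
          have e2 : (q₀.1⁻¹ * q.1) * h.vp q.2 * (q₀.1⁻¹ * q.1)⁻¹ = h.vp q₀.2 := by
            rw [mul_inv_rev, inv_inv]
            calc _ = q₀.1⁻¹ * (q.1 * h.vp q.2 * q.1⁻¹) * q₀.1 := by group
              _ = _ := by rw [e]; group
          have e3 : h.vp i = h.vp q.2 ^ (q.2⁻¹ * i).val := by
            rw [h.vp_mul, ← mul_assoc, mul_inv_cancel₀ hq.1.2.1, one_mul]
          rw [e3, ← conj_pow, e2, h.vp_mul]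
          exact h.mem_P_iff.2 ⟨_, rfl⟩
        · intro q hq q' hq' e
          rw [Finset.mem_coe, Finset.mem_filter] at hq hq'
          have e1 : q.1 = q'.1 := mul_left_cancel e
          have e2 : φ q = φ q' := hq.2.trans hq'.2.symm
          simp only [φ, e1] at e2
          exact Prod.ext e1 (h.vp_injective (mul_left_cancel (mul_right_cancel e2)))
      have hN : (Finset.univ.filter fun g : G =>
          g ∈ Subgroup.normalizer ((h.P : Subgroup G) : Set G)).card = p * 2 := by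
        rw [← Fintype.card_subtype, ← Nat.card_eq_fintype_card]
        rw [show Nat.card {g // g ∈ Subgroup.normalizer ((h.P : Subgroup G) : Set G)} = _ from h.card_N, hE]
      omega
  have hsum : ∑ g : G, Complex.normSq ((χ : G → ℂ) g) = (Nat.card G : ℝ) := by
    have h1 := classInner_self_of_isIrr χ.2
    rw [classInner, inv_mul_eq_iff_eq_mul₀ (Nat.cast_ne_zero.2 Nat.card_pos.ne'), mul_one] at h1
    simp only [Complex.mul_conj] at h1
    exact_mod_cast h1
  have h1 : ∑ q ∈ S, Complex.normSq ((χ : G → ℂ) (φ q)) =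
      ((Nat.card G * (p - 1) : ℕ) : ℝ) * (d : ℝ) ^ 2 := by
    rw [Finset.sum_congr rfl hval, Finset.sum_const, nsmul_eq_mul, hS, Finset.card_product,
      Finset.card_erase_of_mem (Finset.mem_univ _), Finset.card_univ, Finset.card_univ, ZMod.card,
      Nat.card_eq_fintype_card]
  have h2 : ∑ q ∈ S, Complex.normSq ((χ : G → ℂ) (φ q)) ≤
      ∑ y : G, ((2 * p : ℕ) : ℝ) * Complex.normSq ((χ : G → ℂ) y) := by
    rw [← Finset.sum_fiberwise S φ]
    refine Finset.sum_le_sum fun y _ => ?_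
    rw [Finset.sum_congr rfl fun q hq => by rw [(Finset.mem_filter.1 hq).2],
      Finset.sum_const, nsmul_eq_mul]
    exact mul_le_mul_of_nonneg_right (Nat.cast_le.2 (hfib y)) (Complex.normSq_nonneg _)
  rw [h1, ← Finset.mul_sum, hsum] at h2
  have h3 : ((Nat.card G * (p - 1) : ℕ) : ℤ) * d ^ 2 ≤ ((2 * p : ℕ) : ℤ) * (Nat.card G : ℤ) := by
    exact_mod_cast h2
  push_cast [hp.one_le] at h3
  have hG : (0 : ℤ) < Nat.card G := by exact_mod_cast Nat.card_pos
  nlinarith

/-- The order of the group when `|E| = 2`. -/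
theorem card_two (hE : Nat.card h.E = 2) : p = 5 ∧ Nat.card G = 60 := by
  classical
  haveI := h.finite
  letI : Fintype (IrrCharacter G) := Fintype.ofFinite _
  have hp : p.Prime := Fact.out
  have hp5 : 5 ≤ p := by
    have h3 := h.three_le
    have hne := h.card_E_ne_pred
    have h4 : p ≠ 4 := fun e => by rw [e] at hp; norm_num at hp
    omega
  have h2p : (2 : ZMod p) ≠ 0 := fun e => by
    have h4 : ((2 : ℕ) : ZMod p) = 0 := by exact_mod_cast e
    rw [ZMod.natCast_eq_zero_iff] at h4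
    have := Nat.le_of_dvd two_pos h4
    omega
  obtain ⟨⟨x, hxE⟩, hx1'⟩ := h.exists_ne_one
  have hx1 : x ≠ 1 := fun e => hx1' (Subtype.ext e)
  have helem : ∀ y ∈ h.E, y = 1 ∨ y = x := by
    intro y hy
    by_contra! hcon
    have : ({⟨1, one_mem _⟩, ⟨x, hxE⟩, ⟨y, hy⟩} : Finset h.E).card = 3 := by
      rw [Finset.card_insert_of_notMem, Finset.card_insert_of_notMem, Finset.card_singleton]
      · simp [Subtype.ext_iff, hcon.2.symm]
      · simp [Subtype.ext_iff, hcon.1.symm, hx1.symm]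
    have := this ▸ Finset.card_le_univ _
    rw [← Nat.card_eq_fintype_card, hE] at this
    omega
  have hxx : x * x = 1 := by
    have := congrArg Subtype.val (pow_card_eq_one' (x := (⟨x, hxE⟩ : h.E)))
    rw [hE] at this
    simpa [pow_two] using this
  have hxinv : x⁻¹ = x := inv_eq_of_mul_eq_one_right hxx
  have hn : h.n ⟨x, hxE⟩ = -1 := by
    have h1 := h.n_mul ⟨x, hxE⟩ ⟨x, hxE⟩
    rw [show (⟨x, hxE⟩ : h.E) * ⟨x, hxE⟩ = 1 from Subtype.ext hxx, h.n_one] at h1
    exact (mul_self_eq_one_iff.1 h1.symm).resolve_left fun e => hx1' (h.eq_one_of_n_eq_one e)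
  have hflip : ∀ j, x * h.vp j * x = h.vp (-j) := fun j => by
    have := h.conj_vp ⟨x, hxE⟩ j
    rw [hn, neg_one_mul] at this
    simpa [hxinv] using this
  have hcomm : ∀ j, x * h.vp j = h.vp (-j) * x := fun j => by
    rw [← hflip, mul_assoc _ x x, hxx, mul_one]
  have hC : Subgroup.centralizer ({x} : Set G) = Subgroup.normalizer (h.E : Set G) := by
    ext g
    rw [Subgroup.mem_centralizer_singleton_iff]
    refine ⟨fun hg => h.mem_normalizer_of_conj hxE hx1 (by
      rw [mul_assoc, ← hg, inv_mul_cancel_left]; exact hxE), fun hg => ?_⟩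
    rcases helem _ ((Subgroup.mem_normalizer_iff.1 hg x).1 hxE) with e | e
    · exact absurd (by simpa [mul_inv_eq_one, mul_eq_left] using e) hx1
    · exact mul_inv_eq_iff_eq_mul.1 e
  have hC4 : Nat.card (Subgroup.centralizer ({x} : Set G)) = 4 := by rw [hC, h.card_norm, hE]
  have hnc : ∀ j : ZMod p, j ≠ 0 → ¬ IsConj (h.vp j) x := fun j hj hc => by
    obtain ⟨g, hg⟩ := isConj_iff.1 hc
    have h1 := congrArg (fun y => y ^ 2) hg
    simp only [conj_pow] at h1
    rw [pow_two x, hxx, conj_eq_one_iff] at h1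
    have h2 := orderOf_dvd_of_pow_eq_one h1
    rw [h.orderOf_vp hj] at h2
    have := Nat.le_of_dvd two_pos h2
    omega
  -- integer values at `x`, degrees
  have hval : ∀ χ : IrrCharacter G, ∃ (f : ℕ) (c : ℤ), (χ : G → ℂ) 1 = f ∧ (χ : G → ℂ) x = c ∧
      Even (c - f) := fun χ => CfsgLib.Involutions.exists_int_of_involution χ.2 hxx
  choose f c hf hc hev using hval
  have hreal : ∀ χ : IrrCharacter G, conj ((χ : G → ℂ) x) = (χ : G → ℂ) x := fun χ => by
    rw [hc]; simp
  have htriv_ne : trivIrr G ≠ h.St := fun e => by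
    have h1 := congrArg (fun χ : IrrCharacter G => (χ : G → ℂ) 1) e
    simp only [trivIrr_apply, h.St_one] at h1
    have : p = 1 := by exact_mod_cast h1.symm
    omega
  have hctriv : c (trivIrr G) = 1 := by
    have h1 := hc (trivIrr G); rw [trivIrr_apply] at h1; exact_mod_cast h1.symm
  have hcSt : c h.St = 1 := by
    have h1 := hc h.St
    rw [show x = ((⟨x, hxE⟩ : h.E) : G) from rfl, h.St_E hx1'] at h1
    exact_mod_cast h1.symm
  -- exactly two further characters are nonzero at `x`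
  set R : Finset (IrrCharacter G) := ((Finset.univ.erase (trivIrr G)).erase h.St) with hR
  have hsplit : ∀ g : IrrCharacter G → ℂ,
      ∑ χ, g χ = g (trivIrr G) + g h.St + ∑ χ ∈ R, g χ := fun g => by
    rw [hR, add_assoc, Finset.add_sum_erase _ _ (Finset.mem_erase.2 ⟨htriv_ne.symm, Finset.mem_univ _⟩),
      Finset.add_sum_erase _ _ (Finset.mem_univ _)]
  have hsq : ∑ χ ∈ R, c χ ^ 2 = 2 := by
    have h1 := sum_mul_conj x x
    rw [if_pos (IsConj.refl x), hC4, hsplit] at h1
    simp only [hc, map_intCast, hctriv, hcSt, Int.cast_one, map_one] at h1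
    have h2 : ((∑ χ ∈ R, c χ ^ 2 : ℤ) : ℂ) = ((2 : ℤ) : ℂ) := by
      push_cast at h1 ⊢
      simp only [pow_two]
      linear_combination h1
    exact_mod_cast h2
  set T : Finset (IrrCharacter G) := R.filter fun χ => c χ ≠ 0 with hT
  have hTsum : ∑ χ ∈ T, c χ ^ 2 = 2 := by
    rw [hT, Finset.sum_filter_of_ne (p := fun χ => c χ ≠ 0) (fun χ _ hne h0 => hne (by simp [h0]))]
    exact hsq
  have hTone : ∀ χ ∈ T, 1 ≤ c χ ^ 2 := fun χ hχ => by
    have h0 := (Finset.mem_filter.1 hχ).2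
    have := sq_pos_of_ne_zero h0
    omega
  have hTcard : T.card = 2 := by
    have h1 : (T.card : ℤ) ≤ 2 := by
      rw [← hTsum]
      simpa using Finset.card_nsmul_le_sum T (fun χ => c χ ^ 2) 1 hTone
    have h1' : T.card ≤ 2 := by exact_mod_cast h1
    interval_cases hk : T.card
    · rw [Finset.card_eq_zero.1 hk] at hTsum; simp at hTsum
    · obtain ⟨χ, hχ⟩ := Finset.card_eq_one.1 hk
      rw [hχ, Finset.sum_singleton] at hTsum
      have h5 : c χ ≤ 1 := by nlinarith
      have h6 : -1 ≤ c χ := by nlinarith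
      interval_cases hcv : c χ <;> simp at hTsum
    · rfl
  obtain ⟨χ₁, χ₂, h12, hT2⟩ := Finset.card_eq_two.1 hTcard
  have hm1 : χ₁ ∈ T := by rw [hT2]; simp
  have hm2 : χ₂ ∈ T := by rw [hT2]; simp
  have hc1 : c χ₁ ^ 2 = 1 ∧ c χ₂ ^ 2 = 1 := by
    rw [hT2, Finset.sum_pair h12] at hTsum
    have := hTone _ hm1
    have := hTone _ hm2
    omega
  have hsum : ∀ g : IrrCharacter G → ℂ, ∑ χ, (c χ : ℂ) * g χ =
      g (trivIrr G) + g h.St + (c χ₁ : ℂ) * g χ₁ + (c χ₂ : ℂ) * g χ₂ := fun g => by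
    rw [hsplit, hctriv, hcSt, Int.cast_one, one_mul, one_mul,
      ← Finset.sum_filter_of_ne (p := fun χ => c χ ≠ 0)
        (fun χ _ hne h0 => hne (by simp [h0])), ← hT, hT2, Finset.sum_pair h12, add_assoc _ _ (_ * _)]
  -- column orthogonality between `x` and `1`
  have hcol1 : (c χ₁) * f χ₁ + (c χ₂) * f χ₂ = -((p : ℤ) + 1) := by
    have h1 := sum_degree_mul (G := G) x
    rw [if_neg hx1] at h1
    simp only [hc, mul_comm _ ((c _ : ℤ) : ℂ)] at h1
    rw [hsum, trivIrr_apply, h.St_one, hf, hf] at h1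
    have h2 : (((c χ₁) * f χ₁ + (c χ₂) * f χ₂ : ℤ) : ℂ) = ((-((p : ℤ) + 1) : ℤ) : ℂ) := by
      push_cast
      linear_combination h1
    exact_mod_cast h2
  -- column orthogonality between `x` and `v ^ j`
  have hcol2 : ∀ j : ZMod p, j ≠ 0 →
      (c χ₁ : ℂ) * (χ₁ : G → ℂ) (h.vp j) + (c χ₂ : ℂ) * (χ₂ : G → ℂ) (h.vp j) = -1 := by
    intro j hj
    have h1 := sum_mul_conj (h.vp j) x
    rw [if_neg (hnc j hj)] at h1
    simp only [hc, map_intCast, mul_comm _ ((c _ : ℤ) : ℂ)] at h1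
    rw [hsum, trivIrr_apply, h.St_vp hj] at h1
    linear_combination h1
  -- counting the factorizations of `v ^ j` into two conjugates of `x`
  have hcount : ∀ j : ZMod p, j ≠ 0 → (16 * p : ℂ) = (Nat.card G : ℂ) *
      (1 + (χ₁ : G → ℂ) (h.vp j) / f χ₁ + (χ₂ : G → ℂ) (h.vp j) / f χ₂) := by
    intro j hj
    have hconj : ∀ i, IsConj x (h.vp i * x) := fun i => isConj_iff.2 ⟨h.vp (i * 2⁻¹), by
      rw [← h.vp_neg, mul_assoc, hcomm, ← mul_assoc, neg_neg, ← h.vp_add, ← mul_add,
        show (2⁻¹ : ZMod p) + 2⁻¹ = 1 by rw [← two_mul, mul_inv_cancel₀ h2p], mul_one]⟩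
    have hset : (Finset.univ.filter fun a => IsConj x a ∧ IsConj x (a * h.vp j)) =
        Finset.univ.image fun i => h.vp i * x := by
      ext a
      simp only [Finset.mem_filter, Finset.mem_univ, true_and, Finset.mem_image]
      constructor
      · rintro ⟨ha, hb⟩
        obtain ⟨g, hg⟩ := isConj_iff.1 ha
        obtain ⟨g', hg'⟩ := isConj_iff.1 hb
        have ha2 : a * a = 1 := by
          rw [← hg]
          calc _ = g * (x * x) * g⁻¹ := by group
            _ = 1 := by rw [hxx]; group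
        have hb2 : a * h.vp j * (a * h.vp j) = 1 := by
          rw [← hg']
          calc _ = g' * (x * x) * g'⁻¹ := by group
            _ = 1 := by rw [hxx]; group
        have hinv : a * h.vp j * a = h.vp (-j) := by
          rw [h.vp_neg]
          exact eq_inv_of_mul_eq_one_left (by rw [mul_assoc (a * _) a]; exact hb2)
        rw [h.vp_neg] at hinv
        have e : a * (h.vp j)⁻¹ = h.vp j * a := by
          rw [← hinv, ← mul_assoc, ← mul_assoc, ha2, one_mul]
        have hmem : a * x ∈ Subgroup.centralizer ({h.vp j} : Set G) := by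
          rw [Subgroup.mem_centralizer_singleton_iff, mul_assoc, hcomm, h.vp_neg, ← mul_assoc, e,
            mul_assoc]
        rw [h.centralizer_vp hj] at hmem
        obtain ⟨i, hi⟩ := h.mem_P_iff.1 hmem
        exact ⟨i, by rw [hi, mul_assoc, hxx, mul_one]⟩
      · rintro ⟨i, rfl⟩
        refine ⟨hconj i, ?_⟩
        rw [mul_assoc, hcomm, ← mul_assoc, ← h.vp_add]
        exact hconj _
    have hcard : (Finset.univ.filter fun a => IsConj x a ∧ IsConj x (a * h.vp j)).card = p := by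
      rw [hset, Finset.card_image_of_injective _ (fun i i' e => h.vp_injective (mul_right_cancel e)),
        Finset.card_univ, ZMod.card]
    have h1 := CfsgLib.BrauerCharacters.sum_weight_pairs x x
      (fun u : G => if u = h.vp j then (1 : ℂ) else 0)
    simp only [ite_mul, one_mul, zero_mul, Finset.sum_ite_eq', Finset.mem_univ, if_true] at h1
    obtain ⟨N, hN, h1⟩ : ∃ N : ℕ, N = p ∧ (N : ℂ) = _ := ⟨_, by convert hcard, h1⟩
    rw [hN] at h1
    have h2 : ∀ χ : IrrCharacter G, centralChar (χ : G → ℂ) x * conj ((χ : G → ℂ) x) *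
        (χ : G → ℂ) (h.vp j) = ((Subgroup.centralizer ({x} : Set G)).index : ℂ) *
          ((c χ : ℂ) * ((c χ : ℂ) * ((χ : G → ℂ) (h.vp j) / (χ : G → ℂ) 1))) := fun χ => by
      rw [centralChar, hreal, hc]; ring
    simp only [h2, ← Finset.mul_sum] at h1
    rw [hsum, trivIrr_apply, trivIrr_apply, h.St_vp hj, hctriv, hcSt, hf χ₁, hf χ₂] at h1
    have h3 : (Nat.card G : ℂ) = 4 * ((Subgroup.centralizer ({x} : Set G)).index : ℂ) := by
      rw [← Subgroup.card_mul_index (Subgroup.centralizer ({x} : Set G)), hC4]; push_cast; rfl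
    have hG0 : (Nat.card G : ℂ) ≠ 0 := Nat.cast_ne_zero.2 Nat.card_pos.ne'
    have e1 : (c χ₁ : ℂ) * c χ₁ = 1 := by
      rw [← Int.cast_mul, ← pow_two, hc1.1, Int.cast_one]
    have e2 : (c χ₂ : ℂ) * c χ₂ = 1 := by
      rw [← Int.cast_mul, ← pow_two, hc1.2, Int.cast_one]
    rw [← mul_assoc (c χ₁ : ℂ), ← mul_assoc (c χ₂ : ℂ), e1, e2, div_mul_eq_mul_div,
      eq_div_iff hG0] at h1
    rw [h3] at h1 ⊢
    simp only [Int.cast_one, zero_div, mul_zero, add_zero, one_mul, div_one] at h1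
    apply mul_left_cancel₀ (b := (16 * p : ℂ))
      (show ((Subgroup.centralizer ({x} : Set G)).index : ℂ) ≠ 0 from
        Nat.cast_ne_zero.2 Subgroup.index_ne_zero_of_finite)
    linear_combination 4 * h1
  -- degrees
  have hdeg : ∀ χ ∈ T, Odd (f χ) ∧ 2 ≤ f χ ∧ f χ ≠ p := by
    intro χ hχ
    have hc2 : c χ = 1 ∨ c χ = -1 := by
      have hh : c χ ^ 2 = 1 := by
        rw [hT2, Finset.mem_insert, Finset.mem_singleton] at hχ
        rcases hχ with rfl | rfl
        exacts [hc1.1, hc1.2]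
      exact sq_eq_one_iff.1 hh
    have hodd : Odd (f χ) := by
      obtain ⟨k, hk⟩ := hev χ
      refine Nat.odd_iff.2 ?_
      rcases hc2 with e | e <;> omega
    have hR' := (Finset.mem_filter.1 hχ).1
    rw [hR, Finset.mem_erase, Finset.mem_erase] at hR'
    refine ⟨hodd, ?_, fun e => hR'.1 (h.St_unique χ (by rw [hf, e]))⟩
    by_contra hlt
    have hf1 : f χ = 1 := by
      have := Nat.odd_iff.1 hodd
      omega
    obtain ⟨l, hl⟩ := CfsgLib.Clifford.exists_linFun_of_isCharacter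
      (IsIrrCharacter.isCharacter χ.2) (by rw [hf, hf1, Nat.cast_one])
    have hl1 : l = 1 := MonoidHom.ext fun g => MonoidHom.mem_ker.1
      (Abelianization.commutator_subset_ker l (by rw [h.perfect]; exact Subgroup.mem_top g))
    refine hR'.2.1 (Subtype.ext ?_)
    rw [hl, hl1]
    funext g
    simp [CfsgLib.Clifford.linFun_apply, trivIrr_apply]
  obtain ⟨ho1, hf12, hfp1⟩ := hdeg _ hm1
  obtain ⟨ho2, hf22, hfp2⟩ := hdeg _ hm2
  have hbig : 1 + p ^ 2 + f χ₁ ^ 2 + f χ₂ ^ 2 ≤ Nat.card G := by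
    have h1 := sum_degree_sq (G := G)
    simp only [hf] at h1
    have h2 : ∑ χ : IrrCharacter G, f χ ^ 2 = Nat.card G := by exact_mod_cast h1
    have hne : ∀ χ ∈ T, χ ≠ trivIrr G ∧ χ ≠ h.St := fun χ hχ => by
      have h3 := (Finset.mem_filter.1 hχ).1
      rw [hR, Finset.mem_erase, Finset.mem_erase] at h3
      exact ⟨h3.2.1, h3.1⟩
    have hft : f (trivIrr G) = 1 := by
      have h3 := hf (trivIrr G); rw [trivIrr_apply] at h3; exact_mod_cast h3.symm
    have hfS : f h.St = p := by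
      have h3 := hf h.St; rw [h.St_one] at h3; exact_mod_cast h3.symm
    rw [← h2]
    refine le_trans (le_of_eq ?_) (Finset.sum_le_sum_of_subset
      (Finset.subset_univ ({trivIrr G, h.St, χ₁, χ₂} : Finset (IrrCharacter G))))
    rw [Finset.sum_insert (by simp [htriv_ne, (hne _ hm1).1.symm, (hne _ hm2).1.symm]),
      Finset.sum_insert (by simp [(hne _ hm1).2.symm, (hne _ hm2).2.symm]), Finset.sum_pair h12,
      hft, hfS]
    ring
  by_cases hcase : c χ₁ * f χ₁ = c χ₂ * f χ₂
  · -- equal degrees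
    have hneg : c χ₁ = -1 ∧ c χ₂ = -1 := by
      rcases sq_eq_one_iff.1 hc1.1 with e | e <;> rcases sq_eq_one_iff.1 hc1.2 with e' | e' <;>
        rw [e, e'] at hcase hcol1 <;> first | (exfalso; omega) | exact ⟨e, e'⟩
    rw [hneg.1, hneg.2] at hcase hcol1
    have hff : f χ₂ = f χ₁ := by omega
    have hpf : p + 1 = 2 * f χ₁ := by omega
    have h1 := hcount 1 one_ne_zero
    have h2 := hcol2 1 one_ne_zero
    rw [hneg.1, hneg.2] at h2
    rw [hff] at h1 hbig
    have h3 : (((16 * p * f χ₁ : ℕ)) : ℂ) = ((Nat.card G * (f χ₁ + 1) : ℕ) : ℂ) := by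
      have hfne : (f χ₁ : ℂ) ≠ 0 := Nat.cast_ne_zero.2 (by omega)
      push_cast at h2 ⊢
      rw [h1]
      field_simp
      linear_combination -h2
    have h4 : 16 * p * f χ₁ = Nat.card G * (f χ₁ + 1) := by exact_mod_cast h3
    have hf5 : f χ₁ ≤ 5 := by
      by_contra hlt
      have h6 : 6 ≤ f χ₁ := by omega
      nlinarith
    have hf3 := Nat.odd_iff.1 ho1
    interval_cases hv : f χ₁
    all_goals first
      | omega
      | (have hp5' : p = 5 := by omega
         exact ⟨hp5', by rw [hp5'] at h4; omega⟩)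
      | (have hp9 : p = 9 := by omega
         rw [hp9] at hp
         norm_num at hp)
  · exfalso
    have hconst : ∀ j : ZMod p, j ≠ 0 → (χ₁ : G → ℂ) (h.vp j) = (χ₁ : G → ℂ) (h.vp 1) ∧
        (χ₂ : G → ℂ) (h.vp j) = (χ₂ : G → ℂ) (h.vp 1) := by
      intro j hj
      have a1 := hcount j hj
      have a2 := hcount 1 one_ne_zero
      have b1 := hcol2 j hj
      have b2 := hcol2 1 one_ne_zero
      have hG0 : (Nat.card G : ℂ) ≠ 0 := Nat.cast_ne_zero.2 Nat.card_pos.ne'
      have g1 : (f χ₁ : ℂ) ≠ 0 := Nat.cast_ne_zero.2 (by omega)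
      have g2 : (f χ₂ : ℂ) ≠ 0 := Nat.cast_ne_zero.2 (by omega)
      have e2 : (c χ₂ : ℂ) * c χ₂ = 1 := by
        rw [← Int.cast_mul, ← pow_two, hc1.2, Int.cast_one]
      have hdet : (c χ₁ : ℂ) * f χ₁ - (c χ₂ : ℂ) * f χ₂ ≠ 0 := fun e => hcase (by
        have e3 : ((c χ₁ * f χ₁ : ℤ) : ℂ) = ((c χ₂ * f χ₂ : ℤ) : ℂ) := by
          push_cast; linear_combination e
        exact_mod_cast e3)
      set u := (χ₁ : G → ℂ) (h.vp j) - (χ₁ : G → ℂ) (h.vp 1) with hu
      set w := (χ₂ : G → ℂ) (h.vp j) - (χ₂ : G → ℂ) (h.vp 1) with hw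
      have l1 : (c χ₁ : ℂ) * u + (c χ₂ : ℂ) * w = 0 := by rw [hu, hw]; linear_combination b1 - b2
      have l2 : u * f χ₂ + w * f χ₁ = 0 := by
        have : u / f χ₁ + w / f χ₂ = 0 := by
          apply mul_left_cancel₀ hG0
          rw [hu, hw, sub_div, sub_div]
          linear_combination a2 - a1
        field_simp at this
        linear_combination this
      have l3 : u * ((c χ₁ : ℂ) * f χ₁ - (c χ₂ : ℂ) * f χ₂) = 0 := by
        linear_combination (f χ₁ : ℂ) * l1 - (c χ₂ : ℂ) * l2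
      have hu0 : u = 0 := (mul_eq_zero.1 l3).resolve_right hdet
      have hw0 : w = 0 := by
        rw [hu0, zero_mul, zero_add] at l2
        exact (mul_eq_zero.1 l2).resolve_right g1
      exact ⟨sub_eq_zero.1 (hu ▸ hu0), sub_eq_zero.1 (hw ▸ hw0)⟩
    have hint : ∀ χ : IrrCharacter G, (∀ j : ZMod p, j ≠ 0 →
        (χ : G → ℂ) (h.vp j) = (χ : G → ℂ) (h.vp 1)) →
        ∃ d : ℤ, (χ : G → ℂ) (h.vp 1) = d ∧ (p : ℤ) ∣ (f χ : ℤ) - d := by
      intro χ hχ
      obtain ⟨m, hm⟩ := CfsgLib.BrauerCharacters.exists_nat_sum_subgroup χ (h.P : Subgroup G)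
      simp only [ite_mul, one_mul, zero_mul, ← Finset.sum_filter] at hm
      rw [show (Finset.univ.filter fun u => u ∈ (h.P : Subgroup G)) = Finset.univ.image h.vp by
          ext u; simp [h.mem_P_iff],
        Finset.sum_image fun i _ i' _ e => h.vp_injective e,
        ← Finset.add_sum_erase _ _ (Finset.mem_univ (0 : ZMod p)), h.vp_zero, hf, h.card_P,
        Finset.sum_congr rfl fun j hj => hχ j (Finset.ne_of_mem_erase hj), Finset.sum_const,
        Finset.card_erase_of_mem (Finset.mem_univ _), Finset.card_univ, ZMod.card,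
        nsmul_eq_mul, Nat.cast_sub hp.one_le, Nat.cast_one] at hm
      have hp1 : ((p : ℂ) - 1) ≠ 0 := by
        rw [sub_ne_zero]; exact_mod_cast hp.one_lt.ne'
      have hd : (χ : G → ℂ) (h.vp 1) = ((((p : ℚ) * m - f χ) / ((p : ℚ) - 1) : ℚ) : ℂ) := by
        push_cast
        rw [eq_div_iff hp1]
        linear_combination hm
      obtain ⟨d, hd'⟩ := exists_int_of_isIntegral_ratCast
        (hd ▸ CfsgLib.BrauerCharacters.isIntegral_apply χ (h.vp 1))
      have hdd : (χ : G → ℂ) (h.vp 1) = d := by rw [hd, ← hd']; norm_num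
      refine ⟨d, hdd, (m : ℤ) - d, ?_⟩
      rw [hdd] at hm
      have hz : (((f χ : ℤ) - d : ℤ) : ℂ) = (((p : ℤ) * ((m : ℤ) - d) : ℤ) : ℂ) := by
        push_cast; linear_combination hm
      exact_mod_cast hz
    obtain ⟨d₁, hd1, hdv1⟩ := hint χ₁ fun j hj => (hconst j hj).1
    obtain ⟨d₂, hd2, hdv2⟩ := hint χ₂ fun j hj => (hconst j hj).2
    have hb1 := h.sq_value_le (χ := χ₁) (d := d₁) (fun j hj => (hconst j hj).1.trans hd1) hE
    have hb2 := h.sq_value_le (χ := χ₂) (d := d₂) (fun j hj => (hconst j hj).2.trans hd2) hE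
    have hcd : c χ₁ * d₁ + c χ₂ * d₂ = -1 := by
      have h1 := hcol2 1 one_ne_zero
      rw [hd1, hd2] at h1
      exact_mod_cast h1
    have hfin : ∀ (f g : ℕ) (d : ℤ), Odd g → g ≠ p → 2 ≤ f → 1 + p ^ 2 + f ^ 2 + g ^ 2 ≤ Nat.card G →
        (p : ℤ) ∣ (g : ℤ) → -1 ≤ d →
        (16 * p : ℂ) = (Nat.card G : ℂ) * (1 + (d : ℂ) / f) → False := by
      intro f g d hg hgp hf hle hdvd hd hcnt
      have hfne : (f : ℂ) ≠ 0 := Nat.cast_ne_zero.2 (by omega)
      have h1 : ((16 * p * f : ℤ) : ℂ) = (((Nat.card G : ℤ) * ((f : ℤ) + d) : ℤ) : ℂ) := by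
        field_simp at hcnt
        push_cast
        linear_combination hcnt
      have h2 : (16 * p * f : ℤ) = (Nat.card G : ℤ) * ((f : ℤ) + d) := by exact_mod_cast h1
      obtain ⟨k, hk⟩ := Int.natCast_dvd_natCast.1 hdvd
      have hk3 : 3 ≤ k := by
        rcases k with _ | _ | _ | k
        · rw [hk, mul_zero] at hg; simp at hg
        · exact absurd (by rw [hk, Nat.zero_add, mul_one]) hgp
        · rw [hk] at hg; simp [Nat.odd_mul, Nat.odd_iff] at hg
        · omega
      have hg3 : 3 * p ≤ g := by rw [hk, mul_comm p k]; exact Nat.mul_le_mul_right p hk3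
      have h3 : (9 * (p : ℤ) ^ 2) ≤ (Nat.card G : ℤ) := by
        have : ((1 + p ^ 2 + f ^ 2 + g ^ 2 : ℕ) : ℤ) ≤ Nat.card G := by exact_mod_cast hle
        push_cast at this
        have : (3 * (p : ℤ)) ≤ g := by exact_mod_cast hg3
        nlinarith
      have h4 : (f : ℤ) - 1 ≤ (f : ℤ) + d := by omega
      have h5 : (2 : ℤ) ≤ f := by exact_mod_cast hf
      have h6 : (5 : ℤ) ≤ p := by exact_mod_cast hp5
      have h7 : 9 * (p : ℤ) ^ 2 * ((f : ℤ) - 1) ≤ 16 * p * f := by
        rw [h2]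
        calc 9 * (p : ℤ) ^ 2 * ((f : ℤ) - 1) ≤ (Nat.card G : ℤ) * ((f : ℤ) - 1) :=
              mul_le_mul_of_nonneg_right h3 (by omega)
          _ ≤ _ := mul_le_mul_of_nonneg_left h4 (by positivity)
      have hf1 : (0 : ℤ) ≤ (f : ℤ) - 1 := by omega
      have h8 : 45 * (p : ℤ) * ((f : ℤ) - 1) ≤ 9 * (p : ℤ) ^ 2 * ((f : ℤ) - 1) :=
        mul_le_mul_of_nonneg_right (by nlinarith) hf1
      have h9 : 0 < (p : ℤ) * (29 * (f : ℤ) - 45) := by
        refine mul_pos (by omega) (by omega)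
      linarith
    have hsmall : ∀ d : ℤ, ((p : ℤ) - 1) * d ^ 2 ≤ 2 * p → -1 ≤ d ∧ d ≤ 1 := fun d hd => by
      have h6 : (5 : ℤ) ≤ p := by exact_mod_cast hp5
      constructor <;> by_contra hlt
      · have : 4 ≤ d ^ 2 := by nlinarith
        nlinarith
      · have : 4 ≤ d ^ 2 := by nlinarith
        nlinarith
    obtain ⟨hl1, hu1⟩ := hsmall _ hb1
    obtain ⟨hl2, hu2⟩ := hsmall _ hb2
    have h1 := hcount 1 one_ne_zero
    rw [hd1, hd2] at h1
    have hzero : d₁ = 0 ∨ d₂ = 0 := by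
      rcases sq_eq_one_iff.1 hc1.1 with e | e <;> rcases sq_eq_one_iff.1 hc1.2 with e' | e' <;>
        rw [e, e'] at hcd <;> omega
    rcases hzero with hz | hz
    · rw [hz, Int.cast_zero, zero_div, add_zero] at h1
      rw [hz, sub_zero] at hdv1
      exact hfin _ _ _ ho1 hfp1 hf22 (by omega) hdv1 hl2 h1
    · rw [hz, Int.cast_zero, zero_div, add_zero] at h1
      rw [hz, sub_zero] at hdv2
      exact hfin _ _ _ ho2 hfp2 hf12 hbig hdv2 hl1 h1

end Hyp

end CfsgLib.PrimeTI
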