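import Cfsg.Agent.Lib.PrimeTI.Setup
import Mathlib.RepresentationTheory.Basic
import Mathlib.Algebra.Polynomial.Derivative
import Mathlib.RingTheory.Polynomial.Basic
import Mathlib.RingTheory.EuclideanDomain

/-!
# A vector of weight `n` outside the image of `v - 1`

For a representation of degree `p + 1` in characteristic `p` with the traces of the principal
series on `E`, the representation or its dual has a vector in the `n`-eigenspace of `E`,
killed by the norm of `P`, outside the image of `v - 1`.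
-/

set_option autoImplicit false
set_option linter.unusedSectionVars false
set_option linter.style.haveILetI false

namespace CfsgLib.PrimeTI

open Polynomial MulAction

variable {G α : Type*} [Group G] [Fintype G] [MulAction G α] [FaithfulSMul G α]
  [IsPretransitive G α] {p : ℕ} [Fact p.Prime] (h : Hyp G α p)
variable {k : Type*} [Field k] [CharP k p] {V : Type*} [AddCommGroup V] [Module k V]
  (ρ : Representation k G V)

theorem sum_zmod_eq_zero (hp : p ≠ 2) : ∑ j : ZMod p, j = 0 := by
  have h1 : ∑ j : ZMod p, j = -∑ j : ZMod p, j := by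
    rw [← Finset.sum_neg_distrib]
    exact Fintype.sum_equiv (Equiv.neg _) _ _ fun j => by simp
  have h2 : (2 : ZMod p) * ∑ j : ZMod p, j = 0 := by linear_combination h1
  refine (mul_eq_zero.1 h2).resolve_left fun h3 => ?_
  have h4 : ((2 : ℕ) : ZMod p) = 0 := by simpa using h3
  rw [ZMod.natCast_eq_zero_iff] at h4
  exact hp (le_antisymm (Nat.le_of_dvd two_pos h4) (Fact.out : p.Prime).two_le)

/-- The embedding of `ZMod p` into `k`. -/
noncomputable def iota (k : Type*) [Field k] (p : ℕ) [CharP k p] : ZMod p →+* k :=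
  ZMod.castHom (dvd_refl p) k

theorem iota_natCast (m : ℕ) : iota k p (m : ZMod p) = (m : k) := map_natCast _ m

namespace Hyp

/-- The character `y ↦ n(y)` with values in `k`. -/
noncomputable def nk (k : Type*) [Field k] [CharP k p] : h.E →* k :=
  (iota k p).toMonoidHom.comp h.nHom

theorem nk_apply (y : h.E) : h.nk k y = iota k p (h.n y) := rfl

theorem nk_injective : Function.Injective (h.nk k) :=
  (iota k p).injective.comp h.n_injective

theorem nk_ne_zero (y : h.E) : h.nk k y ≠ 0 := fun h0 => by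
  have := map_mul (h.nk k) y y⁻¹
  rw [mul_inv_cancel, map_one, h0, zero_mul] at this
  exact one_ne_zero this

theorem nk_mul_inv (y : h.E) : h.nk k y * h.nk k y⁻¹ = 1 := by
  rw [← map_mul, mul_inv_cancel, map_one]

theorem card_E_ne_zero : (Nat.card h.E : k) ≠ 0 := by
  rw [Ne, CharP.cast_eq_zero_iff k p]
  intro hd
  have h1 := Nat.le_of_dvd (by have := (Fact.out : p.Prime).two_le; omega) (hd.trans h.card_E_dvd)
  have := (Fact.out : p.Prime).two_le
  omega

/-- `v - 1` on `V`. -/
noncomputable def TT : Module.End k V := ρ h.v - 1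

/-- The norm of `P` on `V`. -/
noncomputable def NP : Module.End k V := ∑ j : ZMod p, ρ (h.vp j)

/-- The semi-invariant element `∑ j⁻¹ v^j` of the group algebra of `P`. -/
noncomputable def LL : Module.End k V := ∑ j : ZMod p, iota k p j⁻¹ • ρ (h.vp j)

/-- The projection on the `c`-weight space of `E`. -/
noncomputable def proj [Fintype h.E] (c : h.E →* k) : Module.End k V :=
  (Nat.card h.E : k)⁻¹ • ∑ y : h.E, c y⁻¹ • ρ (y : G)

theorem rho_vp (j : ZMod p) : ρ (h.vp j) = ρ h.v ^ j.val := by rw [vp, map_pow]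

theorem rho_vp_mul_NP (i : ZMod p) : ρ (h.vp i) * h.NP ρ = h.NP ρ := by
  rw [NP, Finset.mul_sum]
  exact Fintype.sum_equiv (Equiv.addLeft i) _ _ fun j => by
    rw [← map_mul, ← h.vp_add]; rfl

theorem LL_mul_NP : h.LL ρ * h.NP ρ = 0 := by
  have hp2 : p ≠ 2 := by have := h.three_le; omega
  rw [LL, Finset.sum_mul]
  simp only [smul_mul_assoc, h.rho_vp_mul_NP]
  rw [← Finset.sum_smul, ← map_sum]
  have : ∑ j : ZMod p, j⁻¹ = 0 :=
    (Fintype.sum_equiv (Equiv.inv (ZMod p)) _ _ fun j => rfl).trans (sum_zmod_eq_zero hp2)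
  rw [this, map_zero, zero_smul]

theorem rho_E_mul_NP (y : h.E) : ρ (y : G) * h.NP ρ = h.NP ρ * ρ (y : G) := by
  have hn : h.n y ≠ 0 := fun h0 => h.nk_ne_zero (k := k) y (by rw [h.nk_apply, h0, map_zero])
  rw [NP, Finset.mul_sum, Finset.sum_mul]
  refine Fintype.sum_equiv (Equiv.mulLeft₀ (h.n y) hn) _ _ fun j => ?_
  rw [← map_mul, ← map_mul]
  congr 1
  show (y : G) * h.vp j = h.vp (h.n y * j) * (y : G)
  rw [← h.conj_vp]
  group

theorem rho_E_mul_LL (y : h.E) : ρ (y : G) * h.LL ρ = h.nk k y • (h.LL ρ * ρ (y : G)) := by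
  have hn : h.n y ≠ 0 := fun h0 => h.nk_ne_zero (k := k) y (by rw [h.nk_apply, h0, map_zero])
  rw [LL, Finset.mul_sum, Finset.sum_mul, Finset.smul_sum]
  refine Fintype.sum_equiv (Equiv.mulLeft₀ (h.n y) hn) _ _ fun j => ?_
  show ρ (y : G) * (iota k p j⁻¹ • ρ (h.vp j))
    = h.nk k y • ((iota k p (h.n y * j)⁻¹ • ρ (h.vp (h.n y * j))) * ρ (y : G))
  rw [mul_smul_comm, smul_mul_assoc, smul_smul, ← map_mul ρ, ← map_mul ρ, h.nk_apply, ← map_mul,
    mul_inv, ← mul_assoc, mul_inv_cancel₀ hn, one_mul, ← h.conj_vp]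
  congr 2
  group

/-- The image of `v - 1` is the image of the semi-invariant element. -/
theorem exists_LL_mul : ∃ B : Module.End k V, h.TT ρ = h.LL ρ * B := by
  have hp : p.Prime := Fact.out
  have hp2 : p ≠ 2 := by have := h.three_le; omega
  set x : Module.End k V := ρ h.v
  let l : k[X] := ∑ j : ZMod p, C (iota k p j⁻¹) * X ^ j.val
  have hl : aeval x l = h.LL ρ := by
    simp only [l, map_sum, map_mul, aeval_C, map_pow, aeval_X, LL, h.rho_vp]
    exact Finset.sum_congr rfl fun j _ => by rw [Algebra.smul_def]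
  have hsum : ∑ j : ZMod p, j⁻¹ = 0 :=
    (Fintype.sum_equiv (Equiv.inv (ZMod p)) _ _ fun j => rfl).trans (sum_zmod_eq_zero hp2)
  have hl1 : l.eval 1 = 0 := by
    simp only [l, eval_finsetSum, eval_mul, eval_C, eval_pow, eval_X, one_pow, mul_one]
    rw [← map_sum, hsum, map_zero]
  obtain ⟨q, hq⟩ := dvd_iff_isRoot.2 (show IsRoot l 1 from hl1)
  have hd : (derivative l).eval 1 = -1 := by
    have h1 : ∀ j : ZMod p, (derivative (C (iota k p j⁻¹) * X ^ j.val)).eval 1
        = if j = 0 then 0 else 1 := by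
      intro j
      rw [derivative_C_mul_X_pow, eval_mul, eval_C, eval_pow, eval_X, one_pow, mul_one,
        ← iota_natCast, ← map_mul, ZMod.natCast_zmod_val]
      split_ifs with hj
      · rw [hj, mul_zero, map_zero]
      · rw [inv_mul_cancel₀ hj, map_one]
    simp only [l, derivative_sum, eval_finsetSum, h1]
    rw [Finset.sum_ite, Finset.sum_const_zero, zero_add, Finset.sum_const, nsmul_one,
      Finset.filter_ne' Finset.univ 0, Finset.card_erase_of_mem (Finset.mem_univ _),
      Finset.card_univ, ZMod.card, Nat.cast_sub hp.one_lt.le, CharP.cast_eq_zero, Nat.cast_one,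
      zero_sub]
  have hq1 : q.eval 1 = -1 := by
    rw [hq, derivative_mul, eval_add, eval_mul, eval_mul] at hd
    simpa using hd
  have hco : IsCoprime ((X - C (1 : k)) ^ p) q := by
    refine IsCoprime.pow_left ((irreducible_X_sub_C 1).coprime_iff_not_dvd.2 fun hdvd => ?_)
    rw [dvd_iff_isRoot, IsRoot, hq1] at hdvd
    exact one_ne_zero (neg_eq_zero.1 hdvd)
  obtain ⟨a, b, hab⟩ := hco
  have hx : aeval x ((X - C (1 : k)) ^ p) = 0 := by
    have e : (X - C (1 : k)) ^ p = X ^ p - C 1 := by
      rw [sub_pow_char]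
      simp
    rw [e, map_sub, map_pow, aeval_X, aeval_C, map_one]
    have h1 := pow_orderOf_eq_one h.v
    rw [h.orderOf_v] at h1
    simp only [x, ← map_pow, h1, map_one, sub_self]
  refine ⟨aeval x b, ?_⟩
  have h1 := congrArg (aeval x) hab
  rw [map_add, map_mul, map_mul, hx, mul_zero, zero_add, map_one] at h1
  have h2 : h.LL ρ = h.TT ρ * aeval x q := by
    rw [← hl, hq, map_mul, map_sub, aeval_X, aeval_C, map_one]
    rfl
  rw [h2, mul_assoc, ← map_mul, mul_comm q b, map_mul, h1, mul_one]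

theorem TT_range_le {u : V} (hu : u ∈ LinearMap.range (h.TT ρ)) :
    u ∈ LinearMap.range (h.LL ρ) := by
  obtain ⟨B, hB⟩ := h.exists_LL_mul ρ
  obtain ⟨z, rfl⟩ := hu
  exact ⟨B z, by rw [hB]; rfl⟩

/-! ### Weight spaces -/

variable [Fintype h.E]

theorem proj_apply (c : h.E →* k) (u : V) :
    h.proj ρ c u = (Nat.card h.E : k)⁻¹ • ∑ y : h.E, c y⁻¹ • ρ (y : G) u := by
  simp [proj, LinearMap.sum_apply]

theorem proj_fixed (c : h.E →* k) {u : V} (hu : ∀ y : h.E, ρ (y : G) u = c y • u) :
    h.proj ρ c u = u := by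
  rw [h.proj_apply]
  simp only [hu, smul_smul, ← map_mul, inv_mul_cancel, map_one, one_smul, Finset.sum_const,
    Finset.card_univ, ← Nat.card_eq_fintype_card]
  rw [← Nat.cast_smul_eq_nsmul k, smul_smul, inv_mul_cancel₀ h.card_E_ne_zero, one_smul]

theorem rho_proj (c : h.E →* k) (z : h.E) (u : V) :
    ρ (z : G) (h.proj ρ c u) = c z • h.proj ρ c u := by
  rw [h.proj_apply, map_smul, map_sum, smul_comm (c z), Finset.smul_sum (r := c z)]
  congr 1
  refine Fintype.sum_equiv (Equiv.mulLeft z) _ _ fun y => ?_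
  show ρ (z : G) (c y⁻¹ • ρ (y : G) u) = c z • c (z * y)⁻¹ • ρ ((z * y : h.E) : G) u
  rw [map_smul, ← Module.End.mul_apply, ← map_mul, ← Subgroup.coe_mul, smul_smul, ← map_mul]
  congr 2
  rw [mul_inv_rev, (h.E_comm y⁻¹ z⁻¹).eq, mul_inv_cancel_left]

theorem isProj_proj (c : h.E →* k) :
    LinearMap.IsProj (LinearMap.range (h.proj ρ c)) (h.proj ρ c) :=
  ⟨fun u => LinearMap.mem_range_self _ u, fun u hu => by
    obtain ⟨z, rfl⟩ := hu
    exact h.proj_fixed ρ c fun y => h.rho_proj ρ c y z⟩

theorem LL_proj (c : h.E →* k) :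
    h.proj ρ (h.nk k * c) * h.LL ρ = h.LL ρ * h.proj ρ c := by
  rw [proj, proj, smul_mul_assoc, mul_smul_comm, Finset.sum_mul, Finset.mul_sum]
  congr 1
  refine Finset.sum_congr rfl fun y _ => ?_
  rw [smul_mul_assoc, mul_smul_comm, h.rho_E_mul_LL, smul_smul, MonoidHom.mul_apply,
    mul_right_comm, ← map_mul, inv_mul_cancel, map_one, one_mul]

open scoped Classical in
/-- The traces of the principal series on `E`. -/
def TraceE : Prop :=
  ∀ y : h.E, LinearMap.trace k V (ρ (y : G))
    = h.nk k y + h.nk k y⁻¹ - (if y = 1 then 1 else 0)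

/-- Either a suitable vector exists, or the norm of `P` is nonzero on the weight space. -/
theorem exists_or_NP_ne_zero [FiniteDimensional k V] (hfin : Module.finrank k V = p + 1)
    (htr : h.TraceE ρ) (hE : 3 ≤ Nat.card h.E) (ht : Nat.card h.E ≠ p - 1) :
    (∃ w : V, (∀ y : h.E, ρ (y : G) w = h.nk k y • w) ∧ h.NP ρ w = 0 ∧
      w ∉ LinearMap.range (h.TT ρ)) ∨
    ∃ w : V, (∀ y : h.E, ρ (y : G) w = h.nk k y • w) ∧ h.NP ρ w ≠ 0 := by
  classical
  have hp : p.Prime := Fact.out
  obtain ⟨t, ht'⟩ := h.card_E_dvd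
  have ht2 : 2 ≤ t := by
    rcases t with _ | _ | t
    · rw [mul_zero] at ht'; have := h.three_le; omega
    · rw [Nat.zero_add, mul_one] at ht'; omega
    · omega
  have htp : t + 1 < p := by
    have : 3 * t ≤ p - 1 := ht' ▸ Nat.mul_le_mul_right t hE
    omega
  -- the traces of the two projections
  have hne : ∀ f : h.E →* k, f ≠ 1 → ∑ y, f y = 0 := fun f hf => sum_hom_units_eq_zero f hf
  have hn1 : h.nk k ≠ 1 := fun e => by
    obtain ⟨y, hy⟩ := h.exists_ne_one
    exact hy (h.nk_injective (k := k) (by rw [e, MonoidHom.one_apply, MonoidHom.one_apply]))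
  have hn2 : h.nk k * h.nk k ≠ 1 := fun e => by
    haveI := h.isCyclic_E
    obtain ⟨x, hx⟩ := IsCyclic.exists_generator (α := h.E)
    have h2 := DFunLike.congr_fun e x
    rw [MonoidHom.mul_apply, MonoidHom.one_apply, ← map_mul] at h2
    have h3 : x ^ 2 = 1 := by rw [pow_two]; exact h.nk_injective (k := k) (h2.trans (map_one _).symm)
    have h4 : orderOf x = Nat.card h.E := orderOf_eq_card_of_forall_mem_zpowers hx
    have := Nat.le_of_dvd two_pos (orderOf_dvd_of_pow_eq_one h3)
    omega
  let ninv : h.E →* k :=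
    { toFun := fun y => h.nk k y⁻¹
      map_one' := by simp
      map_mul' := fun a b => by rw [mul_inv_rev, (h.E_comm b⁻¹ a⁻¹).eq, map_mul] }
  have hninv : ninv ≠ 1 := fun e => hn1 (MonoidHom.ext fun y => by
    have := DFunLike.congr_fun e y⁻¹
    simpa [ninv] using this)
  have hninv2 : ninv * ninv ≠ 1 := fun e => hn2 (MonoidHom.ext fun y => by
    have := DFunLike.congr_fun e y⁻¹
    simpa [ninv] using this)
  have hcard : ∑ _y : h.E, (1 : k) = (Nat.card h.E : k) := by simp [Nat.card_eq_fintype_card]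
  have htt : (Nat.card h.E : k) * (t : k) = -1 := by
    rw [← Nat.cast_mul, ← ht', Nat.cast_sub hp.one_lt.le, CharP.cast_eq_zero, Nat.cast_one,
      zero_sub]
  have hrk : ∀ (c : h.E →* k) (d : ℕ), d ≤ p →
      ∑ y : h.E, c y⁻¹ * LinearMap.trace k V (ρ (y : G)) = (Nat.card h.E : k) * d →
      t ≤ d → d ≤ t + 1 → Module.finrank k (LinearMap.range (h.proj ρ c)) = d := by
    intro c d hdp hsum hd1 hd2
    have h1 := (h.isProj_proj ρ c).trace
    rw [proj, map_smul, map_sum] at h1
    simp only [map_smul, smul_eq_mul] at h1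
    rw [hsum, inv_mul_cancel_left₀ h.card_E_ne_zero] at h1
    have h2 := (CharP.natCast_eq_natCast k p).1 h1
    have h3 : Module.finrank k (LinearMap.range (h.proj ρ c)) ≤ p + 1 :=
      hfin ▸ Submodule.finrank_le _
    have h4 : Module.finrank k (LinearMap.range (h.proj ρ c)) % p = d % p := h2.symm
    rw [Nat.mod_eq_of_lt (show d < p by omega)] at h4
    have h5 := Nat.div_add_mod (Module.finrank k (LinearMap.range (h.proj ρ c))) p
    rcases Nat.lt_or_ge (Module.finrank k (LinearMap.range (h.proj ρ c))) p with h6 | h6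
    · rw [Nat.mod_eq_of_lt h6] at h4; exact h4
    · have h7 : Module.finrank k (LinearMap.range (h.proj ρ c)) / p ≥ 1 :=
        (Nat.one_le_div_iff hp.pos).2 h6
      have h8 : p * 1 ≤ p * (Module.finrank k (LinearMap.range (h.proj ρ c)) / p) :=
        Nat.mul_le_mul_left p h7
      omega
  have e0 : Module.finrank k (LinearMap.range (h.proj ρ 1)) = t := by
    refine hrk 1 t (by omega) ?_ le_rfl (by omega)
    have h1 := hne _ hn1
    have h2 := hne _ hninv
    simp only [MonoidHom.one_apply, one_mul, htr _, Finset.sum_sub_distrib, Finset.sum_add_distrib,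
      h1, Finset.sum_ite_eq', Finset.mem_univ, if_true]
    change 0 + ∑ y, ninv y - 1 = _
    rw [h2, htt]
    ring
  have e1 : Module.finrank k (LinearMap.range (h.proj ρ (h.nk k))) = t + 1 := by
    refine hrk _ (t + 1) (by omega) ?_ (by omega) le_rfl
    have h2 := hne _ hninv2
    have hs : ∀ y : h.E, h.nk k y⁻¹ * LinearMap.trace k V (ρ (y : G))
        = 1 + (ninv * ninv) y - (if y = 1 then 1 else 0) := by
      intro y
      rw [htr y, mul_sub, mul_add]
      rw [show h.nk k y⁻¹ * h.nk k y = 1 by rw [mul_comm, h.nk_mul_inv]]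
      split_ifs with hy
      · subst hy; simp [ninv]
      · simp [ninv]
    simp only [hs, Finset.sum_sub_distrib, Finset.sum_add_distrib, hcard, h2, Finset.sum_ite_eq',
      Finset.mem_univ, if_true]
    push_cast
    rw [mul_add, htt]
    ring
  by_cases hex : ∃ w : V, (∀ y : h.E, ρ (y : G) w = h.nk k y • w) ∧ w ∉ LinearMap.range (h.TT ρ)
  · obtain ⟨w, hw, hwR⟩ := hex
    by_cases hN : h.NP ρ w = 0
    · exact Or.inl ⟨w, hw, hN, hwR⟩
    · exact Or.inr ⟨w, hw, hN⟩
  · exfalso
    push Not at hex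
    have hle : LinearMap.range (h.proj ρ (h.nk k)) ≤ (LinearMap.range (h.proj ρ 1)).map (h.LL ρ) := by
      rintro w ⟨u, rfl⟩
      obtain ⟨z, hz⟩ := h.TT_range_le ρ (hex _ fun y => h.rho_proj ρ _ y u)
      refine ⟨h.proj ρ 1 z, LinearMap.mem_range_self _ z, ?_⟩
      have := LinearMap.congr_fun (h.LL_proj ρ 1) z
      rw [mul_one, Module.End.mul_apply, Module.End.mul_apply] at this
      rw [← this, hz]
      exact (h.isProj_proj ρ _).map_id _ (LinearMap.mem_range_self _ u)
    have := (Submodule.finrank_mono hle).trans (Submodule.finrank_map_le _ _)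
    omega

/-- A vector of weight `n`, killed by the norm of `P`, outside the image of `v - 1`. -/
def IsGood (w : V) : Prop :=
  (∀ y : h.E, ρ (y : G) w = h.nk k y • w) ∧ h.NP ρ w = 0 ∧ w ∉ LinearMap.range (h.TT ρ)

theorem NP_dual (f : Module.Dual k V) (u : V) : h.NP ρ.dual f u = f (h.NP ρ u) := by
  simp only [NP, LinearMap.sum_apply, map_sum, Representation.dual_apply,
    Module.Dual.transpose_apply]
  refine Fintype.sum_equiv (Equiv.neg _) _ _ fun j => ?_
  rw [Equiv.neg_apply, show (h.vp j)⁻¹ = h.vp (-j) by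
    rw [inv_eq_iff_mul_eq_one, ← h.vp_add, add_neg_cancel, h.vp_zero]]
  rfl

theorem traceE_dual [FiniteDimensional k V] (htr : h.TraceE ρ) : h.TraceE ρ.dual := by
  intro y
  rw [Representation.dual_apply, LinearMap.trace_transpose', ← Subgroup.coe_inv, htr, inv_inv,
    add_comm (h.nk k y⁻¹)]
  congr 1
  by_cases hy : y = 1 <;> simp [hy]

theorem finrank_range_NP_le [FiniteDimensional k V] (hfin : Module.finrank k V = p + 1) :
    Module.finrank k (LinearMap.range (h.NP ρ)) ≤ 1 := by
  have hp : p.Prime := Fact.out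
  set x : Module.End k V := ρ h.v
  set T : Module.End k V := h.TT ρ with hT
  -- the norm is the top power of `v - 1`
  have hpoly : (∑ i ∈ Finset.range p, (X : k[X]) ^ i) = (X - C 1) ^ (p - 1) := by
    have h1 : (∑ i ∈ Finset.range p, (X : k[X]) ^ i) * (X - C 1) = (X - C 1) ^ (p - 1) * (X - C 1) := by
      rw [map_one, geom_sum_mul, ← pow_succ, show p - 1 + 1 = p by have := hp.two_le; omega,
        sub_pow_char, one_pow]
    exact mul_right_cancel₀ (X_sub_C_ne_zero 1) h1
  have hN : h.NP ρ = T ^ (p - 1) := by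
    have h2 := congrArg (aeval x) hpoly
    rw [map_sum, map_pow, map_sub, aeval_X, aeval_C, map_one] at h2
    simp only [map_pow, aeval_X] at h2
    rw [hT, TT, ← h2, NP]
    refine Finset.sum_nbij' (fun j : ZMod p => j.val) (fun i => (i : ZMod p)) ?_ ?_ ?_ ?_ ?_
    · exact fun j _ => Finset.mem_range.2 (ZMod.val_lt j)
    · exact fun i _ => Finset.mem_univ _
    · exact fun j _ => ZMod.natCast_zmod_val j
    · exact fun i hi => ZMod.val_natCast_of_lt (Finset.mem_range.1 hi)
    · exact fun j _ => h.rho_vp ρ j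
  set r := Module.finrank k (LinearMap.range (h.NP ρ))
  have hTp : T ^ p = 0 := by
    have h1 := pow_orderOf_eq_one h.v
    rw [h.orderOf_v] at h1
    have e : ((X : k[X]) - C 1) ^ p = X ^ p - C 1 := by
      rw [sub_pow_char]; simp
    have h2 := congrArg (aeval x) e
    rw [map_pow, map_sub, aeval_X, aeval_C, map_one, map_sub, map_pow, aeval_X, aeval_C,
      map_one] at h2
    rw [hT, TT, h2]
    simp only [x, ← map_pow, h1, map_one, sub_self]
  have hstep : ∀ m, m ≤ p - 1 → (m + 1) * r ≤ Module.finrank k (LinearMap.range (T ^ (p - 1 - m))) := by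
    intro m
    induction m with
    | zero => intro _; rw [zero_add, one_mul, Nat.sub_zero, ← hN]
    | succ m ih =>
      intro hm
      set j := p - 1 - (m + 1) with hj
      have hj1 : p - 1 - m = j + 1 := by omega
      have ih' := ih (by omega)
      rw [hj1] at ih'
      let Rj := LinearMap.range (T ^ j)
      let S := T.domRestrict Rj
      have h3 := LinearMap.finrank_range_add_finrank_ker S
      have h4 : LinearMap.range (T ^ (j + 1)) ≤ LinearMap.range S := by
        rintro _ ⟨u, rfl⟩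
        exact ⟨⟨(T ^ j) u, LinearMap.mem_range_self _ u⟩, by rw [pow_succ']; rfl⟩
      have hker : r ≤ Module.finrank k (LinearMap.ker S) := by
        have hmem : ∀ u ∈ LinearMap.range (h.NP ρ), u ∈ Rj ∧ T u = 0 := by
          rintro _ ⟨u, rfl⟩
          rw [hN]
          refine ⟨⟨(T ^ (p - 1 - j)) u, ?_⟩, ?_⟩
          · rw [← Module.End.mul_apply, ← pow_add, show j + (p - 1 - j) = p - 1 by omega]
          · rw [← Module.End.mul_apply, ← pow_succ', show p - 1 + 1 = p by omega, hTp,
              LinearMap.zero_apply]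
        let e : LinearMap.range (h.NP ρ) →ₗ[k] LinearMap.ker S :=
          LinearMap.codRestrict _ (LinearMap.codRestrict Rj (Submodule.subtype _)
            fun u => (hmem _ u.2).1) fun u => (hmem _ u.2).2
        exact LinearMap.finrank_le_finrank_of_injective (f := e) fun a b hab =>
          Subtype.ext (congrArg (fun z : LinearMap.ker S => ((z : Rj) : V)) hab)
      have h5 := Submodule.finrank_mono h4
      have h6 : (m + 1 + 1) * r = (m + 1) * r + r := by ring
      show (m + 1 + 1) * r ≤ Module.finrank k Rj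
      omega
  have h7 := hstep (p - 1) le_rfl
  have h8 := (Submodule.finrank_le (LinearMap.range (T ^ (p - 1 - (p - 1))))).trans_eq hfin
  rw [show p - 1 + 1 = p by have := hp.two_le; omega] at h7
  by_contra hr
  have h9 : p * 2 ≤ p * r := Nat.mul_le_mul_left p (by omega)
  have := hp.two_le
  omega

/-- The representation or its dual has a good vector. -/
theorem exists_good [FiniteDimensional k V] (hfin : Module.finrank k V = p + 1)
    (htr : h.TraceE ρ) (hE : 3 ≤ Nat.card h.E) (ht : Nat.card h.E ≠ p - 1) :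
    (∃ w, h.IsGood ρ w) ∨ ∃ f, h.IsGood ρ.dual f := by
  rcases h.exists_or_NP_ne_zero ρ hfin htr hE ht with ⟨w, hw⟩ | ⟨w, hw, hwN⟩
  · exact Or.inl ⟨w, hw⟩
  rcases h.exists_or_NP_ne_zero ρ.dual (Subspace.dual_finrank_eq.trans hfin) (h.traceE_dual ρ htr) hE ht
    with ⟨f, hf⟩ | ⟨f, hf, hfN⟩
  · exact Or.inr ⟨f, hf⟩
  exfalso
  obtain ⟨u, hu⟩ : ∃ u, f (h.NP ρ u) ≠ 0 := by
    by_contra! hall
    exact hfN (LinearMap.ext fun u => by rw [h.NP_dual, hall, LinearMap.zero_apply])
  let ninv : h.E →* k :=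
    { toFun := fun y => h.nk k y⁻¹
      map_one' := by simp
      map_mul' := fun a b => by rw [mul_inv_rev, (h.E_comm b⁻¹ a⁻¹).eq, map_mul] }
  set u' := h.proj ρ ninv u with hu'
  have hu'w : ∀ y : h.E, ρ (y : G) u' = h.nk k y⁻¹ • u' := fun y => h.rho_proj ρ ninv y u
  have hu'N : f (h.NP ρ u') = f (h.NP ρ u) := by
    rw [hu', h.proj_apply, map_smul, map_sum, map_smul, map_sum]
    have hterm : ∀ y : h.E, f (h.NP ρ (ninv y⁻¹ • ρ (y : G) u)) = f (h.NP ρ u) := by
      intro y
      rw [map_smul, map_smul, ← Module.End.mul_apply, ← h.rho_E_mul_NP, Module.End.mul_apply]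
      have h1 := LinearMap.congr_fun (hf y⁻¹) (h.NP ρ u)
      rw [Representation.dual_apply, Module.Dual.transpose_apply, LinearMap.comp_apply,
        Subgroup.coe_inv, inv_inv, LinearMap.smul_apply] at h1
      rw [h1, smul_eq_mul, smul_eq_mul, ← mul_assoc]
      show h.nk k y⁻¹⁻¹ * h.nk k y⁻¹ * _ = _
      rw [inv_inv, h.nk_mul_inv, one_mul]
    simp only [hterm, Finset.sum_const, Finset.card_univ, ← Nat.card_eq_fintype_card]
    rw [← Nat.cast_smul_eq_nsmul k, smul_smul, inv_mul_cancel₀ h.card_E_ne_zero, one_smul]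
  have hy : ∃ y : h.E, h.nk k y ≠ h.nk k y⁻¹ := by
    by_contra! hall
    haveI := h.isCyclic_E
    obtain ⟨x, hx⟩ := IsCyclic.exists_generator (α := h.E)
    have h3 : x ^ 2 = 1 := by
      rw [pow_two]; exact mul_eq_one_iff_eq_inv.2 (h.nk_injective (k := k) (hall x))
    have h4 : orderOf x = Nat.card h.E := orderOf_eq_card_of_forall_mem_zpowers hx
    have := Nat.le_of_dvd two_pos (orderOf_dvd_of_pow_eq_one h3)
    omega
  obtain ⟨y, hy⟩ := hy
  have hli : LinearIndependent k ![h.NP ρ w, h.NP ρ u'] := by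
    rw [LinearIndependent.pair_iff]
    intro s t hst
    have h1 := congrArg (ρ (y : G)) hst
    have ea : ρ (y : G) (h.NP ρ w) = h.nk k y • h.NP ρ w := by
      rw [← Module.End.mul_apply, h.rho_E_mul_NP, Module.End.mul_apply, hw, map_smul]
    have eb : ρ (y : G) (h.NP ρ u') = h.nk k y⁻¹ • h.NP ρ u' := by
      rw [← Module.End.mul_apply, h.rho_E_mul_NP, Module.End.mul_apply, hu'w, map_smul]
    rw [map_add, map_smul, map_smul, ea, eb, map_zero] at h1
    have h2 : (s * (h.nk k y - h.nk k y⁻¹)) • h.NP ρ w = 0 := by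
      have e1 := congrArg (h.nk k y⁻¹ • ·) hst
      simp only [smul_add, smul_smul, smul_zero] at e1
      simp only [smul_smul] at h1
      rw [mul_sub, sub_smul]
      rw [mul_comm (h.nk k y⁻¹) t, mul_comm (h.nk k y⁻¹) s] at e1
      linear_combination (norm := module) h1 - e1
    have hs : s = 0 := by
      rcases smul_eq_zero.1 h2 with h2 | h2
      · exact (mul_eq_zero.1 h2).resolve_right (sub_ne_zero.2 hy)
      · exact absurd h2 hwN
    subst hs
    rw [zero_smul, zero_add] at hst
    refine ⟨rfl, (smul_eq_zero.1 hst).resolve_right fun e => hu ?_⟩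
    rw [← hu'N, e, map_zero]
  have h2 : (2 : ℕ) ≤ Module.finrank k (LinearMap.range (h.NP ρ)) := by
    have e := finrank_span_eq_card hli
    rw [Fintype.card_fin] at e
    refine e.ge.trans (Submodule.finrank_mono (Submodule.span_le.2 ?_))
    rintro _ ⟨i, rfl⟩
    fin_cases i <;> exact LinearMap.mem_range_self _ _
  have := h.finrank_range_NP_le ρ hfin
  omega

end Hyp

end CfsgLib.PrimeTI
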